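import Mathlib
import Cfsg.Agent.H16.Basic

/-! Fisher's inequality (`fisher`); a subgroup of a doubly transitive group of index less than the degree is transitive
(`trans_of_index`); a subgroup of order eight with conjugate non-identity elements complements every subgroup of index
eight of a simple group (`compl8`). -/

set_option autoImplicit false

namespace H25
open Subgroup MulAction Matrix

theorem fisher {X Y : Type*} [Finite X] [Finite Y] (I : X → Y → Prop) {r l : ℕ}
    (hl : l < r) (h1 : ∀ x, {y | I x y}.ncard = r) (h2 : ∀ x x', x ≠ x' → {y | I x y ∧ I x' y}.ncard = l) :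
    Nat.card X ≤ Nat.card Y := by
  classical
  have := Fintype.ofFinite X
  have := Fintype.ofFinite Y
  let M : Matrix X Y ℚ := of fun x y => if I x y then 1 else 0
  have m : ∀ x x', (M * Mᵀ) x x' = if x = x' then (r : ℚ) else l := fun x x' => by
    have : (M * Mᵀ) x x' = {y | I x y ∧ I x' y}.ncard := by
      simp only [M, mul_apply, transpose_apply, of_apply, ← ite_and, mul_ite, mul_one, mul_zero]
      simp [Set.ncard_eq_toFinset_card', and_comm]
    split_ifs with e
    · rw [this, ← h1 x, e]; simp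
    · rw [this, h2 x x' e]
  have u : Function.Injective M.vecMulLinear := (injective_iff_map_eq_zero M.vecMulLinear).2 fun u hu => by
    have a : ∀ x', ((r : ℚ) - l) * u x' + l * ∑ x, u x = 0 := fun x' => by
      have : (u ᵥ* (M * Mᵀ)) x' = 0 := by rw [← vecMul_vecMul, show u ᵥ* M = 0 from hu]; simp
      rw [← this, vecMul, dotProduct, Finset.mul_sum, ← Finset.sum_ite_eq_of_mem' _ x' (fun x => ((r : ℚ) - l) * u x)
        (Finset.mem_univ _), ← Finset.sum_add_distrib]
      exact Finset.sum_congr rfl fun x _ => by simp only [m]; split_ifs <;> ring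
    have b : (0 : ℚ) < r - l := sub_pos.2 (by exact_mod_cast hl)
    have c : ∑ x, u x = 0 := by
      have := Finset.sum_eq_zero fun x (_ : x ∈ Finset.univ) => a x
      rw [Finset.sum_add_distrib, ← Finset.mul_sum, Finset.sum_const, nsmul_eq_mul, ← mul_assoc, ← add_mul] at this
      exact (mul_eq_zero.1 this).resolve_left (by positivity)
    exact funext fun x => by simpa [c, b.ne'] using a x
  simpa using LinearMap.finrank_le_finrank_of_injective u

theorem trans_of_index {G X : Type*} [Group G] [Finite G] [Finite X] [MulAction G X]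
    (h2 : IsMultiplyPretransitive G X 2) (H : Subgroup G) (hi : H.index < Nat.card X) (a b : X) :
    ∃ h ∈ H, h • a = b := by
  by_contra hb
  let I : X → G ⧸ H → Prop := fun x y => ∃ g : G, (g : G ⧸ H) = y ∧ g • a = x
  have inv : ∀ (g : G) x y, I (g • x) (g • y) ↔ I x y := fun g x y =>
    ⟨fun ⟨k, e, e'⟩ => ⟨g⁻¹ * k, by rw [← inv_smul_smul g y, ← e]; rfl, by rw [mul_smul, e', inv_smul_smul]⟩,
      fun ⟨k, e, e'⟩ => ⟨g * k, e ▸ rfl, e' ▸ mul_smul ..⟩⟩
  have ab : a ≠ b := fun e => hb ⟨1, one_mem _, by rw [one_smul, e]⟩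
  have lam : ∀ {x x' p p' : X}, x ≠ x' → p ≠ p' → {y | I x y ∧ I x' y}.ncard = {y | I p y ∧ I p' y}.ncard :=
    fun hx hp => by
      obtain ⟨g, rfl, rfl⟩ := H16.exists_smul2 h2 hx hp
      refine Set.ncard_congr (fun y _ => g • y) (by simp [inv]) (by simp) fun y hy => ⟨g⁻¹ • y, ?_, by simp⟩
      simpa [← inv g _ (g⁻¹ • y)] using hy
  refine hi.not_ge (fisher I (r := {y | I a y}.ncard) (Set.ncard_lt_ncard (s := {y | I a y ∧ I b y})
    ⟨fun _ h => h.1, fun e => ?_⟩) (fun x => ?_) fun _ _ e => lam e ab)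
  · obtain ⟨g, e1, e2⟩ := (e (show ((1 : G) : G ⧸ H) ∈ {y | I a y} from ⟨1, rfl, one_smul ..⟩)).2
    exact hb ⟨g, by simpa [QuotientGroup.eq] using e1, e2⟩
  · have : Nontrivial X := ⟨a, b, ab⟩
    obtain ⟨w, hw⟩ := exists_ne x
    obtain ⟨g, rfl, -⟩ := H16.exists_smul2 h2 hw.symm ab
    refine Set.ncard_congr (fun y _ => g • y) (by simp [inv]) (by simp) fun y hy => ⟨g⁻¹ • y, ?_, by simp⟩
    simpa [← inv g _ (g⁻¹ • y)] using hy

theorem card_fixedBy_conj {G X : Type*} [Group G] [MulAction G X] {a b : G} (h : IsConj a b) :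
    Nat.card (fixedBy X a) = Nat.card (fixedBy X b) := by
  obtain ⟨g, rfl⟩ := isConj_iff.1 h
  refine Nat.card_congr ((toPerm g).subtypeEquiv fun x => ?_)
  simp [mul_smul]

theorem compl8 {G : Type*} [Group G] [Finite G] [IsSimpleGroup G] {H U : Subgroup G} (hH : H.index = 8)
    (hU : Nat.card U = 8) {u : G} (hc : ∀ a ∈ U, a ≠ 1 → IsConj u a) (x : G) : ∃ h ∈ H, ∃ a ∈ U, x = h * a := by
  classical
  have hd : Disjoint H U := disjoint_def.2 fun {a} ha hu => by_contra fun a1 => by
    have := Fintype.ofFinite U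
    have := Fintype.ofFinite (G ⧸ H)
    have := Fintype.ofFinite (orbitRel.Quotient U (G ⧸ H))
    have h1 := sum_card_fixedBy_eq_card_orbits_mul_card_group U (G ⧸ H)
    simp only [← Nat.card_eq_fintype_card] at h1
    have k : ∀ b ∈ Finset.univ.erase (1 : U), Nat.card (fixedBy (G ⧸ H) b) = Nat.card (fixedBy (G ⧸ H) a) :=
      fun b hb => card_fixedBy_conj (X := G ⧸ H) (a := b.1)
        ((hc b b.2 fun e => Finset.ne_of_mem_erase hb (Subtype.ext e)).symm.trans (hc a hu a1))
    rw [← Finset.add_sum_erase _ _ (Finset.mem_univ 1), Finset.sum_congr rfl k, Finset.sum_const,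
      Finset.card_erase_of_mem (Finset.mem_univ _), Finset.card_univ, ← Nat.card_eq_fintype_card, hU,
      fixedBy_one_eq_univ, Nat.card_congr (Equiv.Set.univ _), ← index, hH, smul_eq_mul] at h1
    have h2 : 0 < Nat.card (fixedBy (G ⧸ H) a) := Nat.card_pos_iff.2 ⟨⟨⟨((1 : G) : G ⧸ H), by
      rw [mem_fixedBy, ← mem_stabilizer_iff, stabilizer_quotient]; exact ha⟩⟩, inferInstance⟩
    have h3 : fixedBy (G ⧸ H) a = Set.univ := Set.eq_of_subset_of_ncard_le (Set.subset_univ _) (by
      rw [Set.ncard_univ, ← index, hH, ← Nat.card_coe_set_eq]; omega)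
    have h4 : a ∈ H.normalCore := by
      rw [normalCore_eq_ker]
      exact Equiv.ext fun y => (h3 ▸ Set.mem_univ y : y ∈ fixedBy (G ⧸ H) a)
    rcases H.normalCore_normal.eq_bot_or_eq_top with e | e
    · exact a1 (by rwa [e] at h4)
    · rw [eq_top_iff.2 (e.ge.trans H.normalCore_le), index_top] at hH
      omega
  obtain ⟨⟨h, a⟩, e, -⟩ := (isComplement'_of_card_mul_and_disjoint (by rw [hU, ← hH, card_mul_index]) hd).existsUnique x
  exact ⟨h, h.2, a, a.2, e.symm⟩

end H25
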