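import Cfsg.Agent.H11.Gm0

/-! Minimal degree of `G₂(q)`, piece S, part 1: the weight multiplicities of the eigenspace of `h 9 ω`. -/
set_option autoImplicit false
namespace H25.GmS
open H11 H11.Gm H24 Module Matrix

variable {F G M : Type*} [Field F] [Group G] [AddCommGroup M] [Module ℂ M]
variable {S : Sy F G} {ρ : G →* End ℂ M} {ψ : AddChar F ℂ}

theorem wt_eq (hψ : ψ ≠ 1) {a b : F} (h : ∀ t, ψ (t * a) = ψ (t * b)) : a = b := by
  refine sub_eq_zero.1 (eq_zero_of_forall_addChar_mul hψ fun c => ?_)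
  have h0 : ψ (c * b) ≠ 0 := fun e => by
    have := ψ.map_add_eq_mul (c * b) (-(c * b))
    rw [e] at this; simp at this
  refine mul_right_cancel₀ h0 ?_
  rw [← AddChar.map_add_eq_mul, one_mul, ← h]
  congr 1; ring

/-- multiplicity of the weight `β` of `X_6` in `U ⊓ V` -/
noncomputable def g (S : Sy F G) (ρ : G →* End ℂ M) (ψ : AddChar F ℂ) (U : Submodule ℂ M) (β : F) : ℕ :=
  finrank ℂ ↥(U ⊓ J S ρ ψ 10 1 ⊓ J S ρ ψ 11 0 ⊓ J S ρ ψ 6 β)

theorem count [Fintype F] [FiniteDimensional ℂ M] (hψ : ψ ≠ 1) (h3 : (3 : F) ≠ 0) {ω : Fˣ} (h1 : ω ≠ 1)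
    (hω : ω ^ 3 = 1) (hV : finrank ℂ ↥(J S ρ ψ 10 1 ⊓ J S ρ ψ 11 0) = Fintype.card F)
    (hL : finrank ℂ ↥(J S ρ ψ 10 1 ⊓ J S ρ ψ 11 0 ⊓ J S ρ ψ 9 0) = 1) {v : M} (v0 : v ≠ 0)
    (vA : v ∈ J S ρ ψ 10 1) (vB : v ∈ J S ρ ψ 11 0) (v9 : v ∈ J S ρ ψ 9 0) (v8 : v ∈ J S ρ ψ 8 0)
    (v6 : v ∈ J S ρ ψ 6 0) : ∃ E : Submodule ℂ M, (∀ k, ∀ w ∈ E, ρ (S.θ k) w ∈ E) ∧
      (∀ a, g S ρ ψ E (-a ^ 3) = 1) ∧ ∀ β, (∀ a, -a ^ 3 ≠ β) → g S ρ ψ E β = 0 := by
  classical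
  have hω' : (ω : F) ^ 3 = 1 := by simpa using congrArg Units.val hω
  have hs : (ω : F) ^ 2 + ω + 1 = 0 := by
    refine (mul_eq_zero.1 (show ((ω : F) - 1) * _ = 0 by linear_combination hω')).resolve_left ?_
    exact sub_ne_zero.2 fun e => h1 (Units.ext e)
  set z := S.h 9 ω
  have tA := S.tor 9 (by simp) 10 (by simp) ω
  have tB := S.tor 9 (by simp) 11 (by simp) ω
  have t9 := S.tor 9 (by simp) 9 (by simp) ω
  have t7 := S.tor 9 (by simp) 7 (by simp) ω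
  obtain ⟨ζ, hζ⟩ : ∃ ζ : ℂ, ζ • v = ρ z v := by
    have a1 := J_conj (Units.ne_zero _) tA vA
    have a2 := J_conj (Units.ne_zero _) tB vB
    have a3 := J_conj (Units.ne_zero _) t9 v9
    rw [show pr 9 10 = 3 by decide, zpow_ofNat, hω, Units.val_one, div_one] at a1
    rw [zero_div] at a2 a3
    obtain ⟨c, hc⟩ := (finrank_eq_one_iff_of_nonzero' (K := ℂ)
      (⟨v, ⟨vA, vB⟩, v9⟩ : ↥(J S ρ ψ 10 1 ⊓ J S ρ ψ 11 0 ⊓ J S ρ ψ 9 0)) (fun e => v0 (congrArg Subtype.val e))).1 hL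
      ⟨_, ⟨a1, a2⟩, a3⟩
    exact ⟨c, congrArg Subtype.val hc⟩
  have ζ0 : ζ ≠ 0 := fun e => v0 (inj (ρ := ρ) z (by rw [← hζ, e]; simp))
  let e : F → M := fun u => ρ (S.x 7 u) v
  have eV : ∀ u, e u ∈ J S ρ ψ 10 1 ⊓ J S ρ ψ 11 0 := fun u =>
    ⟨J_comm (fun t => (S.cm (7, 10) (by simp) u t).symm) vA, J_comm (fun t => (S.cm (7, 11) (by simp) u t).symm) vB⟩
  have e9 : ∀ u, e u ∈ J S ρ ψ 9 (-(3 * u)) := fun u t => by
    change ρ _ (ρ _ _) = _
    rw [← app, S.c79, app, app, mem_J.1 vA, map_smul, mem_J0.1 v9, map_smul]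
    congr 2; ring
  have e6 : ∀ u t, ρ (S.x 6 t) (e u) = ψ (t * -u ^ 3) • e u := fun u t => by
    change ρ _ (ρ _ _) = _
    rw [← app, S.c76]
    simp only [app]
    rw [mem_J0.1 vB, mem_J.1 vA]
    simp only [map_smul]
    rw [mem_J0.1 v9, mem_J0.1 v8, mem_J0.1 v6]
    congr 2; ring
  have ez : ∀ u, ρ z (e u) = ζ • e (ω * u) := fun u => by
    have := t7 u
    rw [show pr 9 7 = 1 by decide, zpow_one, mul_inv_eq_iff_eq_mul] at this
    change ρ _ (ρ _ _) = _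
    rw [← app, this, app, ← hζ, map_smul]
  have li : LinearIndependent ℂ e := by
    refine (jes_indep (fun t => ρ (S.x 9 t)) (fun u t => ψ (t * -(3 * u))) fun a b h => ?_).linearIndependent _ e9
      fun u h => v0 (inj (ρ := ρ) (S.x 7 u) (by simpa using h))
    exact mul_left_cancel₀ h3 (neg_injective (wt_eq hψ (congrFun h)))
  have lz : ∀ c d : F → ℂ, ∑ u, c u • e u = ∑ u, d u • e u → ∀ u, c u = d u := fun c d h u =>
    sub_eq_zero.1 (Fintype.linearIndependent_iff.1 li (fun u => c u - d u)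
      (by simp only [sub_smul, Finset.sum_sub_distrib, h, sub_self]) u)
  have sp : Submodule.span ℂ (Set.range e) = J S ρ ψ 10 1 ⊓ J S ρ ψ 11 0 :=
    Submodule.eq_of_le_of_finrank_eq (Submodule.span_le.2 (by rintro _ ⟨u, rfl⟩; exact eV u))
      (by rw [finrank_span_eq_card li, hV])
  let E : Submodule ℂ M := jes (fun _ : Unit => ρ z) fun _ => ζ
  have hE : ∀ c : F → ℂ, ∑ u, c u • e u ∈ E ↔ ∀ u, c (ω * u) = c u := fun c => by
    have b1 : ρ z (∑ u, c u • e u) = ζ • ∑ u, c ((ω⁻¹ : Fˣ) * u) • e u := by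
      rw [map_sum, Finset.smul_sum, ← Equiv.sum_comp (Equiv.mulLeft₀ (ω : F) ω.ne_zero)
        fun u => ζ • c ((ω⁻¹ : Fˣ) * u) • e u]
      refine Finset.sum_congr rfl fun u _ => ?_
      rw [map_smul, ez, smul_comm]
      simp
    constructor
    · intro h u
      have := h ()
      simp only [b1] at this
      have := lz _ _ (smul_right_injective _ ζ0 this) (ω * u)
      simpa using this.symm
    · intro h _
      simp only [b1]
      congr 1
      refine Finset.sum_congr rfl fun u _ => ?_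
      rw [← h]; simp
  have hJ : ∀ (c : F → ℂ) β, ∑ u, c u • e u ∈ J S ρ ψ 6 β ↔ ∀ u, -u ^ 3 ≠ β → c u = 0 := fun c β => by
    have b1 : ∀ t, ρ (S.x 6 t) (∑ u, c u • e u) = ∑ u, (c u * ψ (t * -u ^ 3)) • e u := fun t => by
      simp only [map_sum, map_smul, e6, mul_smul]
    constructor
    · intro h u hu
      by_contra hc
      refine hu (wt_eq hψ fun t => mul_left_cancel₀ hc ?_)
      have := mem_J.1 h t
      rw [b1, Finset.smul_sum] at this
      simp only [smul_smul] at this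
      rw [lz _ _ this u, mul_comm]
    · intro h t
      change ρ _ _ = _
      rw [b1, Finset.smul_sum]
      refine Finset.sum_congr rfl fun u _ => ?_
      by_cases hu : -u ^ 3 = β
      · rw [hu, smul_smul, mul_comm]
      · simp [h u hu]
  have ex : ∀ β, ∀ w ∈ E ⊓ J S ρ ψ 10 1 ⊓ J S ρ ψ 11 0 ⊓ J S ρ ψ 6 β, ∃ c : F → ℂ, ∑ u, c u • e u = w ∧
      (∀ u, c (ω * u) = c u) ∧ ∀ u, -u ^ 3 ≠ β → c u = 0 := fun β w hw => by
    obtain ⟨c, rfl⟩ := (Submodule.mem_span_range_iff_exists_fun ℂ).1 (sp.ge ⟨hw.1.1.2, hw.1.2⟩)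
    exact ⟨c, rfl, (hE c).1 hw.1.1.1, (hJ c β).1 hw.2⟩
  refine ⟨E, fun k w hw _ => ?_, fun a => ?_, fun β hβ => ?_⟩
  · change ρ _ _ = _
    rw [← app, (S.zc ω hω k).eq, app, hw (), map_smul]
  · let c : F → ℂ := fun u => if u ^ 3 = a ^ 3 then 1 else 0
    have sV : ∑ u, c u • e u ∈ J S ρ ψ 10 1 ⊓ J S ρ ψ 11 0 :=
      Submodule.sum_mem _ fun u _ => Submodule.smul_mem _ _ (eV u)
    refine (finrank_eq_one_iff_of_nonzero' (K := ℂ) (⟨∑ u, c u • e u, ⟨⟨(hE c).2 fun u => ?_, sV.1⟩, sV.2⟩,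
      (hJ c _).2 fun u hu => ?_⟩ : ↥(E ⊓ J S ρ ψ 10 1 ⊓ J S ρ ψ 11 0 ⊓ J S ρ ψ 6 (-a ^ 3))) fun h => ?_).2 fun w => ?_
    · simp only [c, mul_pow, hω', one_mul]
    · exact if_neg fun h => hu (by rw [h])
    · have := lz c 0 (by simpa using congrArg Subtype.val h) a
      simp [c] at this
    · obtain ⟨d, hd, d1, d2⟩ := ex _ w.1 w.2
      refine ⟨d a, Subtype.ext ?_⟩
      change d a • ∑ u, c u • e u = _
      rw [← hd, Finset.smul_sum]
      refine Finset.sum_congr rfl fun u _ => ?_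
      by_cases hu : u ^ 3 = a ^ 3
      · have : (u - a) * ((u - ω * a) * (u - ω * (ω * a))) = 0 := by
          linear_combination hu + (-u ^ 2 * a + u * a ^ 2) * hs + (u * a ^ 2 - a ^ 3) * hω'
        simp only [c, if_pos hu, one_smul]
        rcases mul_eq_zero.1 this with h | h
        · rw [sub_eq_zero.1 h]
        · rcases mul_eq_zero.1 h with h | h
          · rw [sub_eq_zero.1 h, d1]
          · rw [sub_eq_zero.1 h, d1, d1]
      · simp [c, hu, d2 u fun h => hu (neg_injective h)]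
  · refine Submodule.finrank_eq_zero.2 (Submodule.eq_bot_iff _ |>.2 fun w hw => ?_)
    obtain ⟨d, rfl, -, d2⟩ := ex _ w hw
    simp [fun u => d2 u (hβ u)]

end H25.GmS
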