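import Cfsg.Agent.H15.Std3

/-! Linear maps over the field with two elements as permutation networks on bitsets of vectors: a program of
transvections `bit i ^= bit j` gives the network `linNet` with point map `linPt`; `exists_linPM` is the permutation
machine of a matrix group over the field with four elements on all vectors. -/

set_option autoImplicit false

namespace H25
open H14 H15 Matrix

theorem add_two_pow_eq_xor {q i : ℕ} (h : q.testBit i = false) : q + 2 ^ i = q ^^^ 2 ^ i := by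
  have h1 : q % 2 ^ (i + 1) < 2 ^ i := Nat.lt_pow_two_of_testBit _ fun j hj => by
    rw [Nat.testBit_mod_two_pow]
    rcases hj.eq_or_lt with rfl | hj
    · rw [h, Bool.and_false]
    · rw [decide_eq_false (by omega), Bool.false_and]
  have h2 : 2 ^ i + q % 2 ^ (i + 1) < 2 ^ (i + 1) := (Nat.add_lt_add_left h1 _).trans_eq (by ring)
  have h3 := Nat.div_add_mod q (2 ^ (i + 1))
  refine Nat.eq_of_testBit_eq fun j => ?_
  rw [show q + 2 ^ i = 2 ^ (i + 1) * (q / 2 ^ (i + 1)) + (2 ^ i + q % 2 ^ (i + 1)) by omega,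
    Nat.testBit_two_pow_mul_add _ h2, Nat.testBit_xor, Nat.testBit_two_pow]
  split_ifs with h4
  · rcases (Nat.lt_succ_iff.1 h4).eq_or_lt with rfl | h5
    · rw [Nat.testBit_two_pow_add_eq, Nat.testBit_mod_two_pow, h]; simp
    · rw [Nat.testBit_two_pow_add_gt h5, Nat.testBit_mod_two_pow, decide_eq_true h4, decide_eq_false (by omega)]
      simp
  · rw [Nat.testBit_div_two_pow, decide_eq_false (by omega), Nat.sub_add_cancel (by omega), Bool.xor_false]

/-- the mask of a transvection -/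
noncomputable def tmask (D i j : ℕ) : ℕ := (fun a => Nat.xor a (Nat.land a (plane D i))) (plane D j)

theorem testBit_tmask (D i j p : ℕ) :
    (tmask D i j).testBit p = (decide (p < 2 ^ D) && (p.testBit j && !p.testBit i)) := by
  rw [show tmask D i j = plane D j ^^^ (plane D j &&& plane D i) from rfl, Nat.testBit_xor, Nat.testBit_and,
    testBit_plane, testBit_plane]
  cases decide (p < 2 ^ D) <;> cases p.testBit j <;> cases p.testBit i <;> rfl

/-- a transvection on codes -/
def tvPt (i j p : ℕ) : ℕ := cond (tb p j) (Nat.xor p (Nat.pow 2 i)) p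

theorem tvPt_eq (i j p : ℕ) : tvPt i j p = if p.testBit j then p ^^^ 2 ^ i else p := by
  rw [tvPt, tb_eq]; cases p.testBit j <;> rfl

theorem tvPt_xor (i j p q : ℕ) : tvPt i j (p ^^^ q) = tvPt i j p ^^^ tvPt i j q := by
  simp only [tvPt_eq, Nat.testBit_xor]
  cases p.testBit j <;> cases q.testBit j <;> simp only [Bool.xor_false, Bool.xor_true, Bool.not_false, Bool.not_true,
    if_true, Bool.false_eq_true, if_false] <;> refine Nat.eq_of_testBit_eq fun k => ?_ <;>
    simp only [Nat.testBit_xor] <;> cases p.testBit k <;> cases q.testBit k <;> cases (2 ^ i).testBit k <;> rfl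

theorem swpPt_tmask {D i j p : ℕ} (hij : i ≠ j) (hp : p < 2 ^ D) : swpPt (2 ^ i) (tmask D i j) p = tvPt i j p := by
  have k : ∀ q : ℕ, (q ^^^ 2 ^ i).testBit j = q.testBit j := fun q => by
    rw [Nat.testBit_xor, Nat.testBit_two_pow, decide_eq_false hij, Bool.xor_false]
  rw [swpPt, tvPt_eq, testBit_tmask, testBit_tmask, decide_eq_true hp, decide_eq_true ((Nat.sub_le p (2 ^ i)).trans_lt hp)]
  cases h1 : p.testBit i
  · cases h2 : p.testBit j
    · rw [if_neg (by simp), if_neg, if_neg (by simp)]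
      rintro ⟨h3, h4⟩
      simp only [Bool.true_and, Bool.and_eq_true, Bool.not_eq_true'] at h4
      rw [← k, ← add_two_pow_eq_xor h4.2, Nat.sub_add_cancel h3, h2] at h4
      exact absurd h4.1 (by simp)
    · rw [if_pos (by simp), if_pos rfl, add_two_pow_eq_xor h1]
  · have h3 : (p ^^^ 2 ^ i).testBit i = false := by rw [Nat.testBit_xor, Nat.testBit_two_pow_self, h1]; rfl
    have h4 := add_two_pow_eq_xor h3
    rw [Nat.xor_assoc, Nat.xor_self, Nat.xor_zero] at h4
    have h5 : p - 2 ^ i = p ^^^ 2 ^ i := by omega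
    rw [if_neg (by simp), h5, k, h3]
    cases p.testBit j
    · rw [if_neg (by simp), if_neg (by simp)]
    · rw [if_pos ⟨by omega, rfl⟩, if_pos rfl]

/-- the network of a program -/
noncomputable def linNet (D : ℕ) (l : List (ℕ × ℕ)) : Net :=
  @List.rec (ℕ × ℕ) (fun _ => Net) Net.nil (fun x _ ih => Net.cons (Nat.pow 2 x.1) (tmask D x.1 x.2) ih) l

/-- the linear map of a program -/
noncomputable def linPt (l : List (ℕ × ℕ)) : ℕ → ℕ :=
  @List.rec (ℕ × ℕ) (fun _ => ℕ → ℕ) (fun p => p) (fun x _ ih p => (fun y => frc y (ih y)) (tvPt x.1 x.2 p)) l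

theorem linPt_cons (x : ℕ × ℕ) (l : List (ℕ × ℕ)) (p : ℕ) : linPt (x :: l) p = linPt l (tvPt x.1 x.2 p) := frc_eq _ _

theorem linPt_xor (l : List (ℕ × ℕ)) (p q : ℕ) : linPt l (p ^^^ q) = linPt l p ^^^ linPt l q := by
  induction l generalizing p q with
  | nil => rfl
  | cons x l ih => rw [linPt_cons, linPt_cons, linPt_cons, tvPt_xor, ih]

theorem pt_linNet {D : ℕ} {l : List (ℕ × ℕ)} (h : l.all (fun x => Nat.blt x.1 D && !Nat.beq x.1 x.2) = true)
    {p : ℕ} (hp : p < 2 ^ D) : (linNet D l).pt p = linPt l p := by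
  induction l generalizing p with
  | nil => rfl
  | cons x l ih =>
    rw [List.all_cons, Bool.and_eq_true, Bool.and_eq_true, Nat.blt_eq, Bool.not_eq_true'] at h
    rw [linPt_cons, show linNet D (x :: l) = .cons (2 ^ x.1) (tmask D x.1 x.2) (linNet D l) from rfl, Net.pt_cons,
      swpPt_tmask (Nat.ne_of_beq_eq_false h.1.2) hp]
    refine ih h.2 ?_
    rw [tvPt_eq]
    split_ifs
    exacts [Nat.xor_lt_two_pow hp (Nat.pow_lt_pow_right one_lt_two h.1.1), hp]

theorem xor_ext {A : Type*} [AddCommGroup A] {f g : ℕ → A} (hf : ∀ p q, f (p ^^^ q) = f p + f q)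
    (hg : ∀ p q, g (p ^^^ q) = g p + g q) {D : ℕ} (h : ∀ k < D, f (2 ^ k) = g (2 ^ k)) {p : ℕ} (hp : p < 2 ^ D) :
    f p = g p := by
  induction D generalizing p with
  | zero =>
    obtain rfl : p = 0 := by omega
    rw [add_eq_left.1 (hf 0 0).symm, add_eq_left.1 (hg 0 0).symm]
  | succ D ih =>
    replace ih := @ih fun k hk => h k (by omega)
    by_cases h1 : p < 2 ^ D
    · exact ih h1
    · have h2 : p - 2 ^ D < 2 ^ D := by rw [pow_succ] at hp; omega
      rw [show p = (p - 2 ^ D) ^^^ 2 ^ D by rw [← add_two_pow_eq_xor (Nat.testBit_lt_two_pow h2)]; omega, hf, hg, ih h2,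
        h D (by omega)]

section
variable {F : Type*} [CommRing F] {ι : Type*} [Fintype ι] [DecidableEq ι] {T : Type*} [Group T]

/-- vectors with the action through `ρ` -/
def VP (_ρ : T →* Matrix ι ι F) : Type _ := ι → F

instance instMulActionVP (ρ : T →* Matrix ι ι F) : MulAction T (VP ρ) where
  smul g x := ρ g *ᵥ (show ι → F from x)
  one_smul x := by
    show ρ 1 *ᵥ _ = _
    rw [map_one, one_mulVec]
  mul_smul g h x := by
    show ρ (g * h) *ᵥ _ = ρ g *ᵥ (ρ h *ᵥ _)
    rw [map_mul, mulVec_mulVec]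
end

section
variable {F : Type*} [Field F] {ω : F} (h2 : (2 : F) = 0) (hω : ω ^ 2 + ω + 1 = 0) {ι : Type*} {d : ℕ} (e : ι ≃ Fin d)

theorem toV4_xor (p q : ℕ) : (ar4 h2 hω).toV e (p ^^^ q) = (ar4 h2 hω).toV e p + (ar4 h2 hω).toV e q := by
  funext i
  refine Eq.trans (congrArg (v4 ω) ?_) (v4_xor h2 ω _ _)
  refine Nat.eq_of_testBit_eq fun k => ?_
  rw [show ∀ a b, Nat.xor a b = a ^^^ b from fun _ _ => rfl]
  simp only [fld_eq, Nat.testBit_mod_two_pow, Nat.testBit_div_two_pow, Nat.testBit_xor, Bool.and_xor_distrib_left]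

theorem toV4_inj {p q : ℕ} (hp : p < 2 ^ (2 * d)) (hq : q < 2 ^ (2 * d))
    (h : (ar4 h2 hω).toV e p = (ar4 h2 hω).toV e q) : p = q := by
  refine Nat.eq_of_testBit_eq fun k => ?_
  by_cases hk : k < 2 * d
  · have h1 := ar4_inj (h2 := h2) (hω := hω) _ _ (congrFun h (e.symm ⟨k / 2, by omega⟩))
    rw [e.apply_symm_apply] at h1
    have h3 := congrArg (Nat.testBit · (k % 2)) (show fld 2 p (k / 2) % 2 ^ 2 = fld 2 q (k / 2) % 2 ^ 2 from h1)
    simp only [fld_eq, Nat.testBit_mod_two_pow, Nat.testBit_div_two_pow, decide_eq_true (Nat.mod_lt k two_pos),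
      Bool.true_and] at h3
    rwa [Nat.mod_add_div] at h3
  · rw [Nat.testBit_lt_two_pow (hp.trans_le (Nat.pow_le_pow_right two_pos (by omega))),
      Nat.testBit_lt_two_pow (hq.trans_le (Nat.pow_le_pow_right two_pos (by omega)))]

/-- the programs compute the matrices -/
noncomputable def linChk (d : ℕ) (As : List ℕ) (ps : List (List (ℕ × ℕ))) : Bool :=
  allLt (fun l => (getL [] ps l).all (fun x => Nat.blt x.1 (2 * d) && !Nat.beq x.1 x.2) && allLt (fun k =>
    Nat.beq (c4.mulV d (getL 0 As l) (2 ^ k)) (linPt (getL [] ps l) (2 ^ k))) (2 * d)) ps.length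

theorem exists_linPM [Fintype F] [Fintype ι] [DecidableEq ι] (hF : Fintype.card F = 4) {T : Type*} [Group T]
    (ρ : T →* Matrix ι ι F) (gen : ℕ → T) {As : List ℕ} {ps : List (List (ℕ × ℕ))}
    (hg : ∀ l < ps.length, ρ (gen l) = (ar4 h2 hω).toM e (getL 0 As l)) (hd : 2 * d < 31)
    (h1 : linChk d As ps = true) (h3 : netsOk (2 ^ (2 * d)) (ps.map (linNet (2 * d))) = true) :
    ∃ M : PM T (VP ρ) (2 ^ (2 * d)) (ps.map (linNet (2 * d))), (∀ l < ps.length, M.gen l = gen l) ∧
      ∀ p, M.dec p = (ar4 h2 hω).toV e p := by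
  let f : Fin (2 ^ (2 * d)) → ι → F := fun p => (ar4 h2 hω).toV e p
  have hf : Function.Bijective f := (Fintype.bijective_iff_injective_and_card f).2
    ⟨fun p q h => Fin.ext (toV4_inj h2 hω e p.2 q.2 h), by
      rw [Fintype.card_fin, Fintype.card_fun, hF, Fintype.card_congr e, Fintype.card_fin, pow_mul]; rfl⟩
  let E := Equiv.ofBijective f hf
  have hE : ∀ p (hp : p < 2 ^ (2 * d)), (E.symm ((ar4 h2 hω).toV e p)).1 = p := fun p hp =>
    congrArg Fin.val (E.symm_apply_apply ⟨p, hp⟩)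
  refine ⟨⟨fun x => (E.symm x).1, fun p => (ar4 h2 hω).toV e p, fun l => if l < ps.length then gen l else 1,
    fun _ _ h => E.symm.injective (Fin.ext h), fun x => (E.symm x).2, hE, Nat.pow_lt_pow_right one_lt_two hd, h3,
    fun l x => ?_⟩, fun l hl => if_pos hl, fun _ => rfl⟩
  obtain ⟨p, rfl⟩ := E.surjective x
  rw [E.symm_apply_apply]
  split_ifs with hl
  · have h4 := allLt_spec h1 l hl
    rw [Bool.and_eq_true] at h4
    have h5 : getL Net.nil (ps.map (linNet (2 * d))) l = linNet (2 * d) (getL [] ps l) := by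
      rw [getL_eq_getD, getL_eq_getD]; exact List.getD_map ps [] (linNet (2 * d))
    have h6 := Net.pt_lt (ok_getL h3 l) p.2
    rw [h5, pt_linNet h4.1 p.2] at h6 ⊢
    rw [← hE _ h6]
    refine congrArg (fun x => (E.symm x).1) ?_
    show ρ (gen l) *ᵥ (ar4 h2 hω).toV e p = _
    rw [hg l hl]
    refine xor_ext (f := fun p => (ar4 h2 hω).toM e (getL 0 As l) *ᵥ (ar4 h2 hω).toV e p)
      (g := fun p => (ar4 h2 hω).toV e (linPt (getL [] ps l) p)) (fun p q => ?_) (fun p q => ?_) (fun k hk => ?_) p.2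
    · simp only [toV4_xor, mulVec_add]
    · simp only [linPt_xor, toV4_xor]
    · simp only [← Ar.toV_mulV]
      exact congrArg _ (Nat.eq_of_beq_eq_true (allLt_spec h4.2 k hk))
  · show (E.symm (ρ 1 *ᵥ E p)).1 = _
    rw [map_one, one_mulVec, E.symm_apply_apply, getL_eq_getD, List.getD_eq_default _ _ (by simpa using hl)]; rfl

end

end H25
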