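import Cfsg.Agent.H25.MiGrp
import Cfsg.Agent.H25.TvSL
import Cfsg.Agent.H25.Fish
import Cfsg.Agent.H10.SL

/-! Minimal index in `SL ι F`, part 1: for a subgroup `H` of small index and a point `u`, the transvections of
`H` with centre `u` are all (`LFull`), contain those whose axis contains a line (`LBig`), or none (`LReg`). -/

set_option autoImplicit false

namespace H25
open Matrix

variable {ι : Type*} [Fintype ι] [DecidableEq ι] {F : Type*} [Field F]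

theorem sl_smul (g : SpecialLinearGroup ι F) (x : ι → F) : g • x = (g : Matrix ι ι F) *ᵥ x := rfl

theorem tv_act {v φ : ι → F} (h : φ ⬝ᵥ v = 0) (x : ι → F) : tv v φ • x = x + (φ ⬝ᵥ x) • v :=
  tv_mulVec h x

theorem sl_ext {g g' : SpecialLinearGroup ι F} (h : ∀ x : ι → F, g • x = g' • x) : g = g' :=
  Subtype.ext (Matrix.toLin'.injective (LinearMap.ext fun x => by simpa [sl_smul] using h x))

omit [DecidableEq ι] in
theorem exists_dot {U : Submodule F (ι → F)} {x : ι → F} (h : x ∉ U) :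
    ∃ φ : ι → F, (∀ y ∈ U, φ ⬝ᵥ y = 0) ∧ φ ⬝ᵥ x = 1 := by
  classical
  obtain ⟨f, hf, hU⟩ := Submodule.exists_dual_map_eq_bot_of_notMem h inferInstance
  obtain ⟨φ, rfl⟩ := (dotProductEquiv F ι).surjective f
  have h1 : ∀ y, dotProductEquiv F ι φ y = φ ⬝ᵥ y := fun y => rfl
  refine ⟨(φ ⬝ᵥ x)⁻¹ • φ, fun y hy => ?_, ?_⟩
  · have : dotProductEquiv F ι φ y ∈ U.map (dotProductEquiv F ι φ) := Submodule.mem_map_of_mem hy
    rw [hU, Submodule.mem_bot, h1] at this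
    simp [this]
  · rw [h1] at hf
    simp [hf]

omit [DecidableEq ι] in
theorem exists_dot2 {a b x : ι → F} (h : x ∉ Submodule.span F {a, b}) :
    ∃ φ : ι → F, φ ⬝ᵥ a = 0 ∧ φ ⬝ᵥ b = 0 ∧ φ ⬝ᵥ x = 1 := by
  obtain ⟨φ, h1, h2⟩ := exists_dot h
  exact ⟨φ, h1 _ (Submodule.subset_span (by simp)), h1 _ (Submodule.subset_span (by simp)), h2⟩

/-- the hyperplane of `f` -/
def hyp (f : ι → F) : AddSubgroup (ι → F) where
  carrier := {x | f ⬝ᵥ x = 0}
  add_mem' {a b} ha hb := by simp_all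
  zero_mem' := by simp
  neg_mem' {a} ha := by simp_all

omit [DecidableEq ι] in
theorem mem_hyp {f x : ι → F} : x ∈ hyp f ↔ f ⬝ᵥ x = 0 := Iff.rfl

omit [DecidableEq ι] in
/-- functionals vanishing on `u` -/
theorem exists_dot_u {u f : ι → F} (hf : f ⬝ᵥ u = 1) {a b x : ι → F} (ha : f ⬝ᵥ a = 0) (hb : f ⬝ᵥ b = 0)
    (hx : f ⬝ᵥ x = 0) (h : x ∉ Submodule.span F {a, b}) :
    ∃ φ : ι → F, φ ⬝ᵥ u = 0 ∧ φ ⬝ᵥ a = 0 ∧ φ ⬝ᵥ b = 0 ∧ φ ⬝ᵥ x = 1 := by
  obtain ⟨φ, h1, h2, h3⟩ := exists_dot2 h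
  exact ⟨φ - (φ ⬝ᵥ u) • f, by simp [hf], by simp [ha, h1], by simp [hb, h2], by simp [hx, h3]⟩

/-- the dot product as a biadditive map -/
def dotB (ι F : Type*) [Fintype ι] [Field F] : (ι → F) →+ (ι → F) →+ F :=
  AddMonoidHom.mk' (fun x => AddMonoidHom.mk' (fun φ => φ ⬝ᵥ x) fun a b => by simp) fun x y => by
    ext; simp

omit [DecidableEq ι] in
@[simp] theorem dotB_apply (x φ : ι → F) : dotB ι F x φ = φ ⬝ᵥ x := rfl

omit [DecidableEq ι] in
theorem dot_nondeg {ψ : AddChar F ℂ} (hψ : ∃ c, ψ c ≠ 1) {u f : ι → F} (hf : f ⬝ᵥ u = 1) (a : ι → F)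
    (ha : a ∈ hyp f) (h : ∀ r ∈ hyp u, ψ (r ⬝ᵥ a) = 1) : a = 0 := by
  classical
  obtain ⟨c, hc⟩ := hψ
  by_contra h0
  obtain ⟨i, hi⟩ := Function.ne_iff.1 h0
  apply hc
  have hi' : a i ≠ 0 := hi
  have := h ((c / a i) • (Pi.single i 1 - u i • f)) (by
    rw [mem_hyp, dotProduct_comm]; simp [hf])
  rw [mem_hyp] at ha
  simpa [ha, hi'] using this

/-- transvections of `H` with centre `u` -/
def LR (H : Subgroup (SpecialLinearGroup ι F)) (u : ι → F) : AddSubgroup (ι → F) where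
  carrier := {φ | φ ⬝ᵥ u = 0 ∧ tv u φ ∈ H}
  add_mem' {a b} ha hb := ⟨by simp [ha.1, hb.1], by
    rw [← tv_mul_tv_left ha.1 hb.1]; exact H.mul_mem ha.2 hb.2⟩
  zero_mem' := ⟨by simp, by simp⟩
  neg_mem' {a} ha := ⟨by simp [ha.1], by rw [← tv_inv ha.1]; exact H.inv_mem ha.2⟩

/-- stabilizer of the point of `u` -/
def LP (u : ι → F) : Subgroup (SpecialLinearGroup ι F) where
  carrier := {g | ∃ c : F, c ≠ 0 ∧ g • u = c • u}
  mul_mem' := by
    rintro a b ⟨c, hc, h⟩ ⟨d, hd, h'⟩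
    exact ⟨d * c, mul_ne_zero hd hc, by rw [mul_smul, h', smul_comm, h, smul_smul]⟩
  one_mem' := ⟨1, one_ne_zero, by simp⟩
  inv_mem' := by
    rintro a ⟨c, hc, h⟩
    refine ⟨c⁻¹, inv_ne_zero hc, ?_⟩
    rw [inv_smul_eq_iff, smul_comm, h, smul_smul, inv_mul_cancel₀ hc, one_smul]

/-- the Levi factor fixing `u` and `f` -/
def LL (u f : ι → F) : Subgroup (SpecialLinearGroup ι F) where
  carrier := {g | g • u = u ∧ ∀ x, f ⬝ᵥ g • x = f ⬝ᵥ x}
  mul_mem' {a b} ha hb := ⟨by rw [mul_smul, hb.1, ha.1], fun x => by rw [mul_smul, ha.2, hb.2]⟩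
  one_mem' := ⟨by simp, by simp⟩
  inv_mem' {a} ha := ⟨by rw [inv_smul_eq_iff, ha.1], fun x => by rw [← ha.2, smul_inv_smul]⟩

/-- `(H ∩ P) Q` -/
def LK (H : Subgroup (SpecialLinearGroup ι F)) (u : ι → F) : Subgroup (SpecialLinearGroup ι F) :=
  (H ⊓ LP u) ⊔ tvGroup u

theorem dot_vecMul (φ x : ι → F) (g : SpecialLinearGroup ι F) :
    (φ ᵥ* (g : Matrix ι ι F)) ⬝ᵥ x = φ ⬝ᵥ g • x := (dotProduct_mulVec _ _ _).symm

theorem conj_tv' (g : SpecialLinearGroup ι F) {v φ : ι → F} (h : φ ⬝ᵥ v = 0) :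
    g * tv v φ * g⁻¹ = tv (g • v) (φ ᵥ* ((g⁻¹ : SpecialLinearGroup ι F) : Matrix ι ι F)) := conj_tv g h

theorem conj_mem_tvGroup {u : ι → F} {g x : SpecialLinearGroup ι F} (hg : g ∈ LP u) (hx : x ∈ tvGroup u) :
    g * x * g⁻¹ ∈ tvGroup u := by
  obtain ⟨c, hc, h⟩ := hg
  obtain ⟨φ, hφ, rfl⟩ := hx
  have h1 := SL_dot_conj g u φ
  rw [← sl_smul, h, hφ, dotProduct_smul, smul_eq_mul, mul_eq_zero, or_iff_right hc] at h1
  rw [conj_tv' g hφ, h, tv_smul c h1]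
  exact ⟨_, by rw [smul_dotProduct, h1, smul_zero], rfl⟩

theorem mem_LK {H : Subgroup (SpecialLinearGroup ι F)} {u : ι → F} {g : SpecialLinearGroup ι F}
    (hg : g ∈ LK H u) : ∃ δ, δ ⬝ᵥ u = 0 ∧ g * tv u δ ∈ H := by
  have hn : LP u ≤ Subgroup.normalizer (tvGroup u : Set (SpecialLinearGroup ι F)) := fun g hg => by
    rw [Subgroup.mem_normalizer_iff]
    refine fun x => ⟨conj_mem_tvGroup hg, fun h => ?_⟩
    simpa [mul_assoc] using conj_mem_tvGroup (Subgroup.inv_mem _ hg) h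
  have h := Subgroup.coe_mul_of_left_le_normalizer_right (H ⊓ LP u) (tvGroup u) (inf_le_right.trans hn)
  have hg' : g ∈ (((H ⊓ LP u) ⊔ tvGroup u : Subgroup _) : Set (SpecialLinearGroup ι F)) := hg
  rw [h] at hg'
  obtain ⟨k, hk, _, ⟨φ, hφ, rfl⟩, rfl⟩ := hg'
  refine ⟨-φ, by simp [hφ], ?_⟩
  rw [← tv_inv hφ]
  simpa using hk.1

theorem tv_mem_LL {u f a φ : ι → F} (h : φ ⬝ᵥ a = 0) (hu : φ ⬝ᵥ u = 0) (ha : f ⬝ᵥ a = 0) :
    tv a φ ∈ LL u f := ⟨by simp [tv_act h, hu], fun x => by simp [tv_act h, ha]⟩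

theorem LR_inv {H : Subgroup (SpecialLinearGroup ι F)} {u f : ι → F} {g : SpecialLinearGroup ι F}
    (hK : g ∈ LK H u) (hL : g ∈ LL u f) {r : ι → F} (hr : r ∈ LR H u) :
    r ᵥ* (g : Matrix ι ι F) ∈ LR H u := by
  obtain ⟨δ, hδ, h⟩ := mem_LK hK
  have h0 : (r ᵥ* (g : Matrix ι ι F)) ⬝ᵥ u = 0 := by rw [dot_vecMul, hL.1, hr.1]
  refine ⟨h0, ?_⟩
  have h1 := H.mul_mem (H.mul_mem (H.inv_mem h) hr.2) h
  have h2 := conj_tv' g⁻¹ hr.1
  rw [inv_inv, (Subgroup.inv_mem _ hL).1] at h2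
  rw [← h2]
  convert h1 using 1
  have h3 : tv u δ * tv u (r ᵥ* (g : Matrix ι ι F)) = tv u (r ᵥ* (g : Matrix ι ι F)) * tv u δ := by
    rw [tv_mul_tv_left hδ h0, tv_mul_tv_left h0 hδ, add_comm]
  rw [← h2] at h3
  calc g⁻¹ * tv u r * g = (tv u δ)⁻¹ * (tv u δ * (g⁻¹ * tv u r * g)) := by group
    _ = _ := by rw [h3]; group

/-- all transvections with centre `u` -/
def LFull (H : Subgroup (SpecialLinearGroup ι F)) (u : ι → F) : Prop := ∀ φ, φ ⬝ᵥ u = 0 → tv u φ ∈ H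

/-- all transvections with centre `u` and axis through `a` -/
def LBig (H : Subgroup (SpecialLinearGroup ι F)) (u a : ι → F) : Prop :=
  ∀ φ, φ ⬝ᵥ u = 0 → φ ⬝ᵥ a = 0 → tv u φ ∈ H

/-- no transvections with centre `u` -/
def LReg (H : Subgroup (SpecialLinearGroup ι F)) (u : ι → F) : Prop :=
  ∀ φ, φ ⬝ᵥ u = 0 → tv u φ ∈ H → φ = 0

theorem LL_trans {u f : ι → F} (hf : f ⬝ᵥ u = 1)
    (h2 : ∀ x : ι → F, ∃ z, f ⬝ᵥ z = 0 ∧ z ∉ Submodule.span F {x}) {x y : ι → F}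
    (hx : f ⬝ᵥ x = 0) (hx0 : x ≠ 0) (hy : f ⬝ᵥ y = 0) (hy0 : y ≠ 0) : ∃ g ∈ LL u f, g • x = y := by
  have key : ∀ x y : ι → F, f ⬝ᵥ x = 0 → f ⬝ᵥ y = 0 → x ≠ 0 → y ∉ Submodule.span F {x} →
      ∃ g ∈ LL u f, g • x = y := by
    intro x y hx hy hx0 h
    obtain ⟨φ, h1, h2, -, h3⟩ := exists_dot_u hf (a := y - x) (b := y - x) (x := x) (by simp [hx, hy])
      (by simp [hx, hy]) hx (by
        rw [Set.pair_eq_singleton, Submodule.mem_span_singleton]
        rintro ⟨c, hc⟩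
        have hc0 : c ≠ 0 := by rintro rfl; exact hx0 (by simpa using hc.symm)
        refine h (Submodule.mem_span_singleton.2 ⟨c⁻¹ * (1 + c), ?_⟩)
        have : y = c⁻¹ • c • y := by rw [smul_smul, inv_mul_cancel₀ hc0, one_smul]
        rw [this, mul_smul]
        congr 1
        linear_combination (norm := module) -hc)
    exact ⟨_, tv_mem_LL h2 h1 (by simp [hx, hy]), by simp [tv_act h2, h3]⟩
  by_cases h : y ∈ Submodule.span F {x}
  · obtain ⟨z, hz, hz'⟩ := h2 x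
    obtain ⟨g, hg, e⟩ := key x z hx hz hx0 hz'
    obtain ⟨g', hg', e'⟩ := key y z hy hz hy0 fun h' =>
      hz' ((Submodule.span_singleton_le_iff_mem _ _).2 h h')
    exact ⟨g'⁻¹ * g, mul_mem (inv_mem hg') hg, by rw [mul_smul, e, ← e', inv_smul_smul]⟩
  · exact key x y hx hy hx0 h

variable [Finite F]

theorem card_le_relIndex_tv (H : Subgroup (SpecialLinearGroup ι F)) {u : ι → F} (hu : u ≠ 0) :
    Nat.card (hyp u) ≤ H.relIndex (tvGroup u) * Nat.card (LR H u) := by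
  have h := orb_count' H (tvGroup u) (1 : SpecialLinearGroup ι F) (O := tv u '' (hyp u))
    (B := tv u '' (LR H u)) (Set.toFinite _) ?_ ?_
  · rw [Set.InjOn.ncard_image] at h
    · exact h.trans (Nat.mul_le_mul_left _ (Set.ncard_image_le (Set.toFinite _)))
    · intro a ha b hb e
      have ha' : a ⬝ᵥ u = 0 := by rw [dotProduct_comm]; exact ha
      have hb' : b ⬝ᵥ u = 0 := by rw [dotProduct_comm]; exact hb
      ext i
      have := congrArg (· • (Pi.single i 1 : ι → F)) e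
      simp only [tv_act ha', tv_act hb', add_right_inj] at this
      simpa using smul_left_injective F hu this
  · rintro _ ⟨φ, hφ, rfl⟩
    exact ⟨_, ⟨φ, by rw [dotProduct_comm]; exact hφ, rfl⟩, mul_one _⟩
  · rintro g hg ⟨φ, hφ, rfl⟩
    exact ⟨φ, ⟨hφ, hg⟩, (mul_one _).symm⟩

theorem L_tri (H : Subgroup (SpecialLinearGroup ι F)) {u f : ι → F} (hf : f ⬝ᵥ u = 1)
    (h2 : ∀ x : ι → F, ∃ z, f ⬝ᵥ z = 0 ∧ z ∉ Submodule.span F {x})
    (hn : H.index + 1 < 2 * Nat.card (hyp f)) :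
    LFull H u ∨ (∃ a, a ∉ Submodule.span F {u} ∧ LBig H u a) ∨ (LReg H u ∧ LL u f ≤ LK H u) := by
  obtain ⟨ψ, hψ⟩ := (AddChar.exists_apply_ne_zero (α := F) (a := 1)).2 one_ne_zero
  have hψ' : ∃ c, ψ c ≠ 1 := ⟨1, hψ⟩
  have hu : u ≠ 0 := by rintro rfl; simp at hf
  have hl : ∀ a ∈ hyp f, (∀ r ∈ hyp u, ψ (dotB ι F a r) = 1) → a = 0 := dot_nondeg hψ' hf
  have hr : ∀ r ∈ hyp u, (∀ a ∈ hyp f, ψ (dotB ι F a r) = 1) → r = 0 := fun r hr h =>
    dot_nondeg hψ' (by rw [dotProduct_comm]; exact hf) r hr fun a ha => by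
      rw [dotProduct_comm]; exact h a ha
  have hR : LR H u ≤ hyp u := fun r hr => by rw [mem_hyp, dotProduct_comm]; exact hr.1
  set A := annL ψ (dotB ι F) (hyp f) (LR H u) with hA
  have hc := card_annL hl hr hR
  have hm : Nat.card A * (LK H u).relIndex (LL u f) ≤ H.index := by
    have h1 := card_le_relIndex_tv H hu
    rw [← card_eq_of_pairing hl hr, ← hc] at h1
    have h3 := idx_QL (H := H) (K := LK H u) (P := LP u) (Q := tvGroup u) (L := LL u f) le_sup_right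
      (fun g hg => ⟨1, one_ne_zero, by rw [hg.1, one_smul]⟩) (sup_le inf_le_right (by
        rintro _ ⟨φ, hφ, rfl⟩
        exact ⟨1, one_ne_zero, by simp [tv_act hφ, hφ]⟩)) le_sup_left
    refine le_trans (Nat.mul_le_mul_right _ (Nat.le_of_mul_le_mul_right h1 Nat.card_pos)) (h3.trans ?_)
    rw [← Subgroup.relIndex_top_right]
    exact relIndex_mono_right _ le_top
  have hinv : ∀ g ∈ LK H u, g ∈ LL u f → ∀ a ∈ A, g • a ∈ A := fun g hK hL a ha =>
    ⟨by rw [mem_hyp, hL.2]; exact ha.1, fun r hr => by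
      rw [dotB_apply, ← dot_vecMul]; exact ha.2 _ (LR_inv hK hL hr)⟩
  have hst : ∀ a ∈ A, a ≠ 0 → LL u f ⊓ MulAction.stabilizer _ a ≤ LK H u := by
    intro a ha h0
    by_contra hc
    have h3 := two_le_relIndex hc
    have h4 := orb_count (LK H u) (LL u f) a (O := (hyp f : Set (ι → F)) \ {0}) (B := (A : Set (ι → F)) \ {0})
      (Set.toFinite _) (fun x hx => LL_trans hf h2 ha.1 h0 hx.1 hx.2)
      (fun g hK hL => ⟨hinv g hK hL a ha, (smul_ne_zero_iff_ne g).2 h0⟩)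
    rw [Set.ncard_sdiff_singleton_of_mem (hyp f).zero_mem, Set.ncard_sdiff_singleton_of_mem A.zero_mem] at h4
    have h5 := relIndex_pos' (LK H u) (LL u f)
    have h6 : 0 < Nat.card A := Nat.card_pos
    change (Nat.card (hyp f) - 1) * _ ≤ _ * (Nat.card A - 1) at h4
    obtain ⟨x, hx⟩ := Nat.exists_eq_add_of_lt h6
    obtain ⟨y, hy⟩ := Nat.exists_eq_add_of_lt (Nat.card_pos (α := hyp f))
    rw [hx] at hm h4
    rw [hy] at hn h4
    simp only [zero_add, add_tsub_cancel_right] at hm hn h4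
    nlinarith
  by_cases h0 : ∀ a ∈ A, a = 0
  · exact Or.inl fun φ hφ => (mem_of_annL hl hr hR (by rw [mem_hyp, dotProduct_comm]; exact hφ)
      fun a ha => by simp [h0 a ha]).2
  push Not at h0
  obtain ⟨a, ha, ha0⟩ := h0
  by_cases h1 : ∀ b ∈ A, b ∈ Submodule.span F {a}
  · refine Or.inr (Or.inl ⟨a, fun h => ?_, fun φ hφ hφ' => (mem_of_annL hl hr hR
      (by rw [mem_hyp, dotProduct_comm]; exact hφ) fun b hb => ?_).2⟩)
    · obtain ⟨c, rfl⟩ := Submodule.mem_span_singleton.1 h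
      have : f ⬝ᵥ c • u = 0 := ha.1
      simp only [dotProduct_smul, hf, smul_eq_mul, mul_one] at this
      simp [this] at ha0
    · obtain ⟨c, rfl⟩ := Submodule.mem_span_singleton.1 (h1 b hb)
      simp [hφ']
  push Not at h1
  obtain ⟨b, hb, hab⟩ := h1
  have key : ∀ a ∈ A, ∀ b ∈ A, a ≠ 0 → ∀ c, f ⬝ᵥ c = 0 → b ∉ Submodule.span F {a, c} → c ∈ A := by
    intro a ha b hb h0 c hc h
    obtain ⟨φ, h1, h2, h3, h4⟩ := exists_dot_u hf ha.1 hc hb.1 h
    have h5 := tv_mem_LL h3 h1 hc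
    have := hinv _ (hst a ha h0 ⟨h5, by simp [tv_act h3, h2]⟩) h5 b hb
    rw [tv_act h3, h4, one_smul] at this
    simpa using A.sub_mem this hb
  have hb0 : b ≠ 0 := by rintro rfl; exact hab (zero_mem _)
  have hall : ∀ c, f ⬝ᵥ c = 0 → c ∈ A := by
    intro c hc
    by_cases h : b ∈ Submodule.span F {a, c}
    · obtain ⟨s, t, e⟩ := Submodule.mem_span_pair.1 h
      have ht : t ≠ 0 := by
        rintro rfl
        exact hab (Submodule.mem_span_singleton.2 ⟨s, by simpa using e⟩)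
      have e' : c = (-(t⁻¹ * s)) • a + t⁻¹ • b := by
        rw [← e, smul_add, smul_smul, smul_smul, inv_mul_cancel₀ ht]; module
      rw [e']
      refine A.add_mem (key a ha b hb ha0 _ (by simp [mem_hyp.1 ha.1]) fun h' => hab ?_)
        (key b hb a ha hb0 _ (by simp [mem_hyp.1 hb.1]) fun h' => hab ?_)
      · obtain ⟨s', t', e⟩ := Submodule.mem_span_pair.1 h'
        exact Submodule.mem_span_singleton.2 ⟨s' - t' * (t⁻¹ * s), by rw [← e]; module⟩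
      · obtain ⟨s', t', e⟩ := Submodule.mem_span_pair.1 h'
        have e2 : a = (s' + t' * t⁻¹) • b := by rw [← e]; module
        have h3 : s' + t' * t⁻¹ ≠ 0 := fun h => ha0 (by rw [e2, h, zero_smul])
        exact Submodule.mem_span_singleton.2 ⟨(s' + t' * t⁻¹)⁻¹, by
          rw [e2, smul_smul, inv_mul_cancel₀ h3, one_smul]⟩
    · exact key a ha b hb ha0 c hc h
  refine Or.inr (Or.inr ⟨fun φ hφ h => hr φ (hR ⟨hφ, h⟩) fun c hc => (hall c hc).2 φ ⟨hφ, h⟩, ?_⟩)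
  by_contra hc
  have h3 := two_le_relIndex hc
  have h4 : A = hyp f := le_antisymm (fun x hx => hx.1) hall
  rw [h4] at hm
  nlinarith

end H25
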