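import Cfsg.Agent.H25.MiL1
import Cfsg.Agent.H25.MiO4

/-! Minimal index in `SL ι F` and `PSL ι F`, part 2: elimination of the types `LBig` and `LReg`; `psl_min`. -/

set_option autoImplicit false

namespace H25
open Matrix
open scoped LinearAlgebra.Projectivization

variable {ι : Type*} [Fintype ι] [DecidableEq ι] {F : Type*} [Field F] {H : Subgroup (SpecialLinearGroup ι F)}

theorem tv_conj_mem {h : SpecialLinearGroup ι F} (hh : h ∈ H) {u x φ : ι → F} {c : F} (e : h • u = c • x)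
    (hc : c ≠ 0) (hφ : φ ⬝ᵥ x = 0) :
    tv x φ ∈ H ↔ tv u (c⁻¹ • φ ᵥ* (h : Matrix ι ι F)) ∈ H := by
  have h1 := conj_tv' h⁻¹ hφ
  have h2 : h⁻¹ • x = c⁻¹ • u := by
    rw [inv_smul_eq_iff, smul_comm, e, smul_smul, inv_mul_cancel₀ hc, one_smul]
  have h3 : (φ ᵥ* (h : Matrix ι ι F)) ⬝ᵥ u = 0 := by rw [dot_vecMul, e]; simp [hφ]
  rw [inv_inv, h2, tv_smul _ h3] at h1
  rw [← h1]
  refine ⟨fun a => mul_mem (mul_mem (inv_mem hh) a) hh, fun a => ?_⟩
  simpa [mul_assoc] using mul_mem (mul_mem hh a) (inv_mem hh)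

theorem LBig.map {h : SpecialLinearGroup ι F} (hh : h ∈ H) {u x a : ι → F} {c : F} (e : h • u = c • x)
    (hc : c ≠ 0) (hb : LBig H u a) : LBig H x (h • a) := fun φ h1 h2 =>
  (tv_conj_mem hh e hc h1).2 (hb _ (by simp [dot_vecMul, e, h1]) (by simp [dot_vecMul, h2]))

theorem LFull.map {h : SpecialLinearGroup ι F} (hh : h ∈ H) {u x : ι → F} {c : F} (e : h • u = c • x)
    (hc : c ≠ 0) (hb : LFull H u) : LFull H x := fun φ h1 =>
  (tv_conj_mem hh e hc h1).2 (hb _ (by simp [dot_vecMul, e, h1]))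

theorem LReg.map {h : SpecialLinearGroup ι F} (hh : h ∈ H) {u x : ι → F} {c : F} (e : h • u = c • x)
    (hc : c ≠ 0) (hb : LReg H u) : LReg H x := fun φ h1 h2 => by
  have := hb _ (by simp [dot_vecMul, e, h1]) ((tv_conj_mem hh e hc h1).1 h2)
  by_contra h0
  exact smul_ne_zero (inv_ne_zero hc) (SL_vecMul_ne_zero h h0) this

theorem LBig.full {x a a' : ι → F} (h : LBig H x a) (h' : LBig H x a') (hn : a' ∉ Submodule.span F {x, a}) :
    LFull H x := fun φ hφ => by
  obtain ⟨θ, h1, h2, h3⟩ := exists_dot2 hn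
  have := H.mul_mem (h ((φ ⬝ᵥ a') • θ) (by simp [h1]) (by simp [h2]))
    (h' (φ - (φ ⬝ᵥ a') • θ) (by simp [h1, hφ]) (by simp [h3]))
  rw [tv_mul_tv_left (by simp [h1]) (by simp [h1, hφ])] at this
  simpa using this

theorem top_of_full [Nontrivial ι] (h : ∀ x, x ≠ 0 → LFull H x) : H = ⊤ := by
  refine eq_top_iff.2 fun g _ => H10.SL_transvection_induction (· ∈ H) (fun i j e c => ?_)
    (fun _ _ => mul_mem) g
  have h1 : (Pi.single j c : ι → F) ⬝ᵥ Pi.single i 1 = 0 := by simp [e.symm]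
  convert h (Pi.single i 1) (by simp) _ h1 using 1
  apply Subtype.ext
  rw [coe_tv h1]
  ext k l
  simp only [SpecialLinearGroup.transvection, transvection, Matrix.add_apply, vecMulVec_apply, single_apply,
    Pi.single_apply]
  by_cases h2 : k = i <;> by_cases h3 : l = j <;> simp [h2, h3, @eq_comm _ i k, @eq_comm _ j l]

theorem not_big (h3 : ∀ x a : ι → F, ∃ y, y ∉ Submodule.span F {x, a}) (hF : ∀ x, x ≠ 0 → ¬ LFull H x)
    (hB : ∀ x, x ≠ 0 → ∃ a, a ∉ Submodule.span F {x} ∧ LBig H x a) : False := by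
  have U : ∀ {x a a'}, x ≠ 0 → LBig H x a → LBig H x a' → a' ∈ Submodule.span F {x, a} :=
    fun h0 h h' => by_contra fun hn => hF _ h0 (h.full h' hn)
  have Sp : ∀ {x a}, x ≠ 0 → LBig H x a → ∀ c ∈ Submodule.span F {x, a}, ∀ φ, φ ⬝ᵥ x = 0 → φ ⬝ᵥ a = 0 →
      tv c φ ∈ H := by
    intro x a hx0 h c hc φ h1 h2
    obtain ⟨s, t, e⟩ := Submodule.mem_span_pair.1 hc
    have hφc : φ ⬝ᵥ c = 0 := by simp [← e, h1, h2]
    by_cases h0 : c ∈ Submodule.span F {x}
    · obtain ⟨s, rfl⟩ := Submodule.mem_span_singleton.1 h0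
      rw [tv_smul _ h1]
      exact h _ (by simp [h1]) (by simp [h2])
    have hc0 : c ≠ 0 := by rintro rfl; exact h0 (zero_mem _)
    obtain ⟨b, -, hb⟩ := hB c hc0
    by_cases hx : x ∈ Submodule.span F {c, b}
    · obtain ⟨s', t', e'⟩ := Submodule.mem_span_pair.1 hx
      by_cases ht : t' = 0
      · by_cases hs : s' = 0
        · exact (hx0 (by rw [← e', hs, ht]; simp)).elim
        · exact (h0 (Submodule.mem_span_singleton.2 ⟨s'⁻¹, by rw [← e', ht]; simp [smul_smul, hs]⟩)).elim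
      · refine hb φ hφc ?_
        have := h1
        rw [← e'] at this
        simpa [hφc, ht] using this
    · obtain ⟨θ, t1, t2, t3⟩ := exists_dot2 hx
      have h4 := h.map (hb θ t1 t2) (x := x + c) (c := 1) (by simp [tv_act t1, t3]) one_ne_zero φ
        (by simp [h1, hφc]) (by simp [tv_act t1, h2, hφc])
      rw [← tv_mul_tv_right h1 hφc] at h4
      exact (H.mul_mem_cancel_left (h φ h1 h2)).1 h4
  obtain ⟨x, hx⟩ := h3 0 0
  have hx0 : x ≠ 0 := by rintro rfl; exact hx (zero_mem _)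
  obtain ⟨a, -, ha⟩ := hB x hx0
  obtain ⟨y, hy⟩ := h3 x a
  have hy0 : y ≠ 0 := by rintro rfl; exact hy (zero_mem _)
  obtain ⟨b, hyb, hb⟩ := hB y hy0
  obtain ⟨c, hc0, hc, hc'⟩ : ∃ c, c ≠ 0 ∧ c ∈ Submodule.span F {x, a} ∧ c ∈ Submodule.span F {y, b} := by
    by_cases h : b ∈ Submodule.span F {x, a} ⊔ Submodule.span F {y}
    · obtain ⟨c, hc, z, hz, e⟩ := Submodule.mem_sup.1 h
      obtain ⟨s, rfl⟩ := Submodule.mem_span_singleton.1 hz
      refine ⟨c, ?_, hc, Submodule.mem_span_pair.2 ⟨-s, 1, by rw [← e]; module⟩⟩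
      rintro rfl
      exact hyb (Submodule.mem_span_singleton.2 ⟨s, by simpa using e⟩)
    · obtain ⟨θ, h1, h2⟩ := exists_dot h
      have t1 := h1 x (Submodule.mem_sup_left (Submodule.subset_span (by simp)))
      have t2 := h1 a (Submodule.mem_sup_left (Submodule.subset_span (by simp)))
      have t3 := h1 y (Submodule.mem_sup_right (Submodule.subset_span (by simp)))
      have h4 := U hy0 hb (hb.map (ha θ t1 t2) (x := y) (c := 1) (by simp [tv_act t1, t3]) one_ne_zero)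
      rw [tv_act t1, h2, one_smul] at h4
      refine ⟨x, hx0, Submodule.subset_span (by simp), ?_⟩
      simpa using Submodule.sub_mem _ h4 (Submodule.subset_span (by simp : b ∈ ({y, b} : Set (ι → F))))
  have h1 : LBig H c y := fun φ h1 h2 => Sp hy0 hb c hc' φ h2 (by
    obtain ⟨s, t, e⟩ := Submodule.mem_span_pair.1 hc'
    have ht : t ≠ 0 := by
      rintro rfl
      have hs : s ≠ 0 := by rintro rfl; exact hc0 (by simpa using e.symm)
      refine hy ?_
      have : y = s⁻¹ • c := by rw [← e]; simp [smul_smul, hs]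
      rw [this]
      exact Submodule.smul_mem _ _ hc
    rw [← e] at h1
    simpa [h2, ht] using h1)
  obtain ⟨a', ha', h2⟩ : ∃ a' ∈ Submodule.span F {x, a}, LBig H c a' := by
    obtain ⟨s, t, e⟩ := Submodule.mem_span_pair.1 hc
    by_cases ht : t = 0
    · have hs : s ≠ 0 := by rintro rfl; exact hc0 (by simpa [ht] using e.symm)
      refine ⟨a, Submodule.subset_span (by simp), fun φ h1 h2 => Sp hx0 ha c hc φ ?_ h2⟩
      rw [← e] at h1
      simpa [ht, hs] using h1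
    · refine ⟨x, Submodule.subset_span (by simp), fun φ h1 h2 => Sp hx0 ha c hc φ h2 ?_⟩
      rw [← e] at h1
      simpa [ht, h2] using h1
  refine hy (Submodule.span_le.2 ?_ (U hc0 h2 h1))
  rintro z (rfl | rfl)
  exacts [hc, ha']

theorem commute_tv {c : SpecialLinearGroup ι F} {a φ : ι → F} (h : φ ⬝ᵥ a = 0) {ν : F} (h1 : c • a = ν • a)
    (h2 : ∀ x, φ ⬝ᵥ c • x = ν * φ ⬝ᵥ x) : c * tv a φ = tv a φ * c := sl_ext fun x => by
  rw [mul_smul, mul_smul, tv_act h, tv_act h, smul_add, smul_comm, h1, h2, smul_smul, mul_comm]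

/-- diagonal matrices of determinant one -/
def dgSL (w : ι → F) (h : ∏ i, w i = 1) : SpecialLinearGroup ι F := ⟨diagonal w, by rw [det_diagonal, h]⟩

theorem dgSL_smul (w : ι → F) (h : ∏ i, w i = 1) (x : ι → F) (i : ι) : (dgSL w h • x) i = w i * x i :=
  mulVec_diagonal _ _ _

theorem not_reg {i0 i1 i2 : ι} (h01 : i0 ≠ i1) (h02 : i0 ≠ i2) (h12 : i1 ≠ i2)
    (hx : (2 : F) ≠ 0 ∨ (∃ ν : F, ν ≠ 0 ∧ ν * ν ≠ 1) ∨
      ∀ j, j ≠ i0 → j ≠ i1 → j ≠ i2 → ∃ k, k ≠ i0 ∧ k ≠ i1 ∧ k ≠ i2 ∧ k ≠ j)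
    (hR : ∀ x, x ≠ 0 → LReg H x)
    (hL : LL (Pi.single i0 1) (Pi.single i0 1) ≤ LK H (Pi.single i0 (1 : F))) : False := by
  set u : ι → F := Pi.single i0 1 with hu
  set φ : ι → F := Pi.single i2 1 with hφ
  have hu0 : u ≠ 0 := by simp [hu]
  let D : SpecialLinearGroup ι F → (ι → F) → Prop := fun g δ => δ ⬝ᵥ u = 0 ∧ g * tv u δ ∈ H
  have ex : ∀ g ∈ LL u u, ∃ δ, D g δ := fun g hg => mem_LK (hL hg)
  have un : ∀ {g δ δ'}, D g δ → D g δ' → δ = δ' := by
    intro g δ δ' h h'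
    have := H.mul_mem (H.inv_mem h.2) h'.2
    rw [_root_.mul_inv_rev, mul_assoc, inv_mul_cancel_left, tv_inv h.1,
      tv_mul_tv_left (by simp [h.1]) h'.1] at this
    exact neg_add_eq_zero.1 (hR u hu0 _ (by simp [h.1, h'.1]) this)
  have mu : ∀ {g g' δ δ'}, g' ∈ LL u u → D g δ → D g' δ' →
      D (g * g') (δ ᵥ* (g' : Matrix ι ι F) + δ') := by
    intro g g' δ δ' hg h h'
    have h0 : (δ ᵥ* (g' : Matrix ι ι F)) ⬝ᵥ u = 0 := by rw [dot_vecMul, hg.1, h.1]
    refine ⟨by simp [h0, h'.1], ?_⟩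
    have h2 := conj_tv' g'⁻¹ h.1
    rw [inv_inv, (Subgroup.inv_mem _ hg).1] at h2
    rw [← tv_mul_tv_left h0 h'.1, ← h2]
    convert H.mul_mem h.2 h'.2 using 1
    group
  have hφu : φ ⬝ᵥ u = 0 := by simp [hφ, hu, h02, h02.symm]
  have cm : ∀ {a δ c γ}, φ ⬝ᵥ a = 0 → u ⬝ᵥ a = 0 → D (tv a φ) δ → c ∈ LL u u → D c γ →
      c * tv a φ = tv a φ * c → ∀ x, δ ⬝ᵥ c • x + γ ⬝ᵥ x = γ ⬝ᵥ (x + (φ ⬝ᵥ x) • a) + δ ⬝ᵥ x := by
    intro a δ c γ h1 h2 h hc hγ e x
    have := congrArg (· ⬝ᵥ x) (un (mu hc h hγ) (e ▸ mu (tv_mem_LL h1 hφu h2) hγ h))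
    simpa only [add_dotProduct, dot_vecMul, tv_act h1] using this
  have cm' : ∀ {a δ c}, φ ⬝ᵥ a = 0 → u ⬝ᵥ a = 0 → D (tv a φ) δ → c ∈ LL u u →
      c * tv a φ = tv a φ * c → ∀ x, φ ⬝ᵥ x = 0 → δ ⬝ᵥ c • x = δ ⬝ᵥ x := by
    intro a δ c h1 h2 h hc e x hx
    obtain ⟨γ, hγ⟩ := ex c hc
    have := cm h1 h2 h hc hγ e x
    rw [hx, zero_smul, add_zero] at this
    linear_combination this
  have T : ∀ {a δ x φ' y}, φ ⬝ᵥ a = 0 → u ⬝ᵥ a = 0 → D (tv a φ) δ → φ ⬝ᵥ x = 0 → u ⬝ᵥ x = 0 →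
      φ' ⬝ᵥ u = 0 → φ' ⬝ᵥ a = 0 → φ' ⬝ᵥ x = 0 → φ ⬝ᵥ y = 0 → φ' ⬝ᵥ y = 1 → δ ⬝ᵥ x = 0 := by
    intro a δ x φ' y h1 h2 h h3 h4 h5 h6 h7 h8 h9
    have := cm' h1 h2 h (tv_mem_LL h7 h5 h4)
      (commute_tv h1 (ν := 1) (by simp [tv_act h7, h6]) fun x => by simp [tv_act h7, h3]) y h8
    simpa [tv_act h7, h9] using this
  set a : ι → F := Pi.single i1 1 with ha
  have hφa : φ ⬝ᵥ a = 0 := by simp [hφ, ha, h12, h12.symm]
  have hua : u ⬝ᵥ a = 0 := by simp [hu, ha, h01, h01.symm]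
  obtain ⟨δ, hδ⟩ := ex _ (tv_mem_LL hφa hφu hua)
  have dg : ∀ (w : ι → F) (h : ∏ i, w i = 1), w i0 = 1 → w i1 = w i2 → ∀ j, j ≠ i2 → w j ≠ 1 → δ j = 0 := by
    intro w h h0 h1 j hj hw
    have := cm' hφa hua hδ (c := dgSL w h) ⟨by
      ext i; rw [dgSL_smul, hu, Pi.single_apply]; split_ifs with e <;> simp [e, h0],
      fun x => by simp [hu, dgSL_smul, h0]⟩ (commute_tv hφa (ν := w i1) (by
        ext i; rw [dgSL_smul, Pi.smul_apply, ha, Pi.single_apply]; split_ifs with e <;> simp [e])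
        fun x => by simp [hφ, dgSL_smul, h1]) (Pi.single j 1) (by simp [hφ, hj, hj.symm])
    have h3 : dgSL w h • (Pi.single j 1 : ι → F) = Pi.single j (w j) := by
      ext i; rw [dgSL_smul, Pi.single_apply, Pi.single_apply]; split_ifs with e <;> simp [e]
    rw [h3] at this
    simp only [dotProduct_single, mul_one] at this
    by_contra hd
    exact hw (mul_left_cancel₀ hd (by rw [this, mul_one]))
  have hA : δ i1 = 0 := by
    by_cases h2 : (2 : F) = 0
    · have h3 := mu (tv_mem_LL hφa hφu hua) hδ hδ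
      rw [tv_mul_tv_left hφa hφa, ← two_smul F, h2, zero_smul, tv_zero_right] at h3
      have h4 := congrArg (· ⬝ᵥ φ) (un h3 (δ' := 0) ⟨by simp, by simp⟩)
      simp only [add_dotProduct, dot_vecMul, tv_act hφa, dotProduct_add, dotProduct_smul, zero_dotProduct,
        smul_eq_mul] at h4
      have h5 : φ ⬝ᵥ φ = 1 := by simp [hφ]
      have h6 : δ ⬝ᵥ a = δ i1 := by simp [ha]
      rw [h5, h6] at h4
      linear_combination h4 - (δ ⬝ᵥ φ) * h2
    · refine dg (fun i => (if i = i1 then -1 else 1) * (if i = i2 then -1 else 1))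
        (by rw [Finset.prod_mul_distrib]; simp) (by simp [h01, h02]) (by simp [h12, h12.symm]) i1 h12 ?_
      simp only [if_true, h12, if_false, mul_one]
      exact fun h => h2 (by linear_combination -h)
  have hB : ∀ j, j ≠ i2 → δ j = 0 := by
    intro j hj2
    by_cases hj0 : j = i0
    · simpa [hu, hj0] using hδ.1
    by_cases hj1 : j = i1
    · rwa [hj1]
    rcases hx with h2 | ⟨ν, h0, h1⟩ | h
    · set b : ι → F := Pi.single j 1 with hb
      have hφb : φ ⬝ᵥ b = 0 := by simp [hφ, hb, hj2, Ne.symm hj2]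
      have hub : u ⬝ᵥ b = 0 := by simp [hu, hb, hj0, Ne.symm hj0]
      obtain ⟨δ', hδ'⟩ := ex _ (tv_mem_LL hφb hφu hub)
      have h3 := mu (tv_mem_LL hφb hφu hub) hδ hδ'
      rw [tv_mul_tv_right hφa hφb] at h3
      have h4 := T (x := a + b) (φ' := a - b) (y := a) (by simp [hφa, hφb]) (by simp [hua, hub]) h3
        (by simp [hφa, hφb]) (by simp [hua, hub])
        (by simp [ha, hb, hu, h01, h01.symm, hj0, Ne.symm hj0])
        (by simp [ha, hb, hj1, Ne.symm hj1]) (by simp [ha, hb, hj1, Ne.symm hj1]) hφa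
        (by simp [ha, hb, hj1, Ne.symm hj1])
      have h5 := T (x := b) (φ' := a) (y := a) hφb hub hδ' hφb hub (by rw [dotProduct_comm, hua])
        (by simp [ha, hb, hj1, Ne.symm hj1]) (by simp [ha, hb, hj1, Ne.symm hj1]) hφa (by simp [ha])
      have h6 := cm hφa hua hδ (tv_mem_LL hφb hφu hub) hδ'
        (by rw [tv_mul_tv_right hφa hφb, tv_mul_tv_right hφb hφa, add_comm]) φ
      have h7 : φ ⬝ᵥ φ = 1 := by simp [hφ]
      have h8 : δ ⬝ᵥ a = 0 := by simp [ha, hA]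
      have h9 : δ ⬝ᵥ b = δ j := by simp [hb]
      simp only [add_dotProduct, dot_vecMul, tv_act hφb, dotProduct_add, h7, one_smul, hφa, hφb, zero_smul,
        add_zero, h8, h9, h5] at h4 h6
      exact (mul_eq_zero.1 (show 2 * δ j = 0 by linear_combination h4 + h6)).resolve_left h2
    · refine dg (fun i => (if i = i1 then ν else 1) * (if i = i2 then ν else 1) *
        (if i = j then (ν * ν)⁻¹ else 1)) (by
          rw [Finset.prod_mul_distrib, Finset.prod_mul_distrib]; simp; field_simp)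
        (by simp [h01, h02, Ne.symm hj0]) (by simp [h12, h12.symm, Ne.symm hj1, Ne.symm hj2]) j hj2 ?_
      simpa only [if_true, hj1, hj2, if_false, mul_one, one_mul, ne_eq, inv_eq_one] using h1
    · obtain ⟨k, k0, k1, k2, kj⟩ := h j hj0 hj1 hj2
      simpa using T (x := Pi.single j 1) (φ' := Pi.single k 1) (y := Pi.single k 1) hφa hua hδ
        (by simp [hφ, hj2, Ne.symm hj2]) (by simp [hu, hj0, Ne.symm hj0]) (by simp [hu, k0]) (by simp [ha, k1])
        (by simp [kj]) (by simp [hφ, k2.symm]) (by simp)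
  have hd : δ = δ i2 • φ := by
    ext j
    by_cases e : j = i2
    · simp [hφ, e]
    · simp [hφ, e, hB j e]
  have h3 := hδ.2
  rw [hd, ← tv_smul _ hφu, tv_mul_tv_right hφa (by simp [hφu])] at h3
  have h4 := hR _ (fun h => by simpa [ha, hu, h01.symm] using congrFun h i1) φ (by simp [hφa, hφu]) h3
  simp [hφ] at h4

theorem sl_min [Finite F] {n : ℕ} (hn : 3 ≤ n) (hexc : ¬ (n = 4 ∧ Nat.card F = 2))
    (H : Subgroup (SpecialLinearGroup (Fin n) F)) (hH : H ≠ ⊤) : Nat.card (ℙ F (Fin n → F)) ≤ H.index := by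
  classical
  by_contra hlt
  push Not at hlt
  have : Nontrivial (Fin n) := Fin.nontrivial_iff_two_le.2 (by omega)
  have htr := trans_of_index (X := ℙ F (Fin n → F)) inferInstance H hlt
  let i0 : Fin n := ⟨0, by omega⟩
  let i1 : Fin n := ⟨1, by omega⟩
  let i2 : Fin n := ⟨2, by omega⟩
  set u : Fin n → F := Pi.single i0 1 with hu
  have hu0 : u ≠ 0 := by simp [hu]
  have tr : ∀ x, x ≠ 0 → ∃ h ∈ H, ∃ c : F, c ≠ 0 ∧ h • u = c • x := fun x hx => by
    obtain ⟨h, hh, e⟩ := htr (.mk F u hu0) (.mk F x hx)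
    rw [Projectivization.smul_mk, Projectivization.mk_eq_mk_iff] at e
    obtain ⟨c, e⟩ := e
    exact ⟨h, hh, c, c.ne_zero, e.symm⟩
  have h3 : ∀ x a : Fin n → F, ∃ y, y ∉ Submodule.span F {x, a} := fun x a => by
    by_contra h
    push Not at h
    have h1 := finrank_span_le_card (R := F) ({x, a} : Set (Fin n → F))
    rw [Submodule.eq_top_iff'.2 h, finrank_top, Module.finrank_fin_fun] at h1
    have h2 : ({x, a} : Set (Fin n → F)).toFinset.card ≤ 2 := by
      rw [Set.toFinset_insert, Set.toFinset_singleton]; exact Finset.card_le_two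
    omega
  have huu : u ⬝ᵥ u = 1 := by simp [hu]
  have hq : 2 ≤ Nat.card F := Finite.one_lt_card
  have hc : H.index + 1 < 2 * Nat.card (hyp u) := by
    have h1 := Projectivization.card' (k := F) (V := Fin n → F)
    have h2 : Nat.card (Fin n → F) ≤ Nat.card F * Nat.card (hyp u) := by
      rw [← Nat.card_prod]
      refine Nat.card_le_card_of_injective (fun x => (u ⬝ᵥ x, ⟨x - (u ⬝ᵥ x) • u, by simp [mem_hyp, huu]⟩))
        fun x y e => ?_
      simp only [Prod.mk.injEq, Subtype.mk.injEq] at e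
      rw [e.1] at e
      exact sub_left_injective e.2
    obtain ⟨t, ht⟩ := Nat.exists_eq_add_of_le hq
    rw [ht] at h1 h2
    rw [show 2 + t - 1 = t + 1 by omega] at h1
    by_contra h4
    nlinarith
  have hF : ¬ LFull H u := fun h => hH (top_of_full fun x hx => by
    obtain ⟨g, hg, c, hc, e⟩ := tr x hx
    exact h.map hg e hc)
  rcases L_tri H huu (fun x => by
    obtain ⟨y, hy⟩ := h3 u x
    refine ⟨y - (u ⬝ᵥ y) • u, by simp [huu], fun h => hy ?_⟩
    obtain ⟨c, e⟩ := Submodule.mem_span_singleton.1 h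
    exact Submodule.mem_span_pair.2 ⟨u ⬝ᵥ y, c, by rw [e]; simp⟩) hc with h | ⟨a, ha, h⟩ | ⟨h, h'⟩
  · exact hF h
  · refine not_big (H := H) h3 (fun x hx hf => ?_) fun x hx => ?_
    · obtain ⟨g, hg, c, hc, e⟩ := tr x hx
      exact hF (hf.map (inv_mem hg) (c := c⁻¹) (by
        rw [inv_smul_eq_iff, smul_comm, e, smul_smul, inv_mul_cancel₀ hc, one_smul]) (inv_ne_zero hc))
    · obtain ⟨g, hg, c, hc, e⟩ := tr x hx
      refine ⟨_, fun h' => ha ?_, h.map hg e hc⟩
      obtain ⟨s, e'⟩ := Submodule.mem_span_singleton.1 h'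
      refine Submodule.mem_span_singleton.2 ⟨s * c⁻¹, MulAction.injective g ?_⟩
      simp only
      rw [smul_comm, e, ← e', smul_smul, mul_assoc, inv_mul_cancel₀ hc, mul_one]
  · refine not_reg (i0 := i0) (i1 := i1) (i2 := i2) (by simp [i0, i1]) (by simp [i0, i2]) (by simp [i1, i2]) ?_
      (fun x hx => by
        obtain ⟨g, hg, c, hc, e⟩ := tr x hx
        exact h.map hg e hc) h'
    by_cases h2 : (2 : F) = 0
    · right
      by_cases hq2 : Nat.card F = 2
      · right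
        intro j j0 j1 j2
        by_cases h5 : 5 ≤ n
        · obtain ⟨l, -, h⟩ := Finset.exists_mem_notMem_of_card_lt_card (s := {i0, i1, i2, j}) (t := Finset.univ)
            (Finset.card_le_four.trans_lt (by simpa))
          exact ⟨l, by simpa using h⟩
        · simp only [ne_eq, Fin.ext_iff, i0, i1, i2] at j0 j1 j2
          have := j.2
          omega
      · left
        obtain ⟨ν, -, h⟩ := Set.exists_mem_notMem_of_ncard_lt_ncard (s := {(0 : F), 1}) (t := Set.univ)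
          (by rw [Set.ncard_pair zero_ne_one, Set.ncard_univ]; omega)
        simp only [Set.mem_insert_iff, Set.mem_singleton_iff, not_or] at h
        refine ⟨ν, h.1, fun e => h.2 ?_⟩
        have : (ν - 1) ^ 2 = 0 := by linear_combination e + (1 - ν) * h2
        exact sub_eq_zero.1 (pow_eq_zero_iff two_ne_zero |>.1 this)
    · exact Or.inl h2

theorem psl_min {F : Type*} [Field F] [Fintype F] {q : ℕ} (hF : Fintype.card F = q) (n : ℕ) (hn : 3 ≤ n)
    (hexc : ¬ (n = 4 ∧ q = 2)) :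
    (∀ H : Subgroup (ProjectiveSpecialLinearGroup (Fin n) F), H ≠ ⊤ → (q ^ n - 1) / (q - 1) ≤ H.index) ∧
    (∃ H : Subgroup (ProjectiveSpecialLinearGroup (Fin n) F), H.index = (q ^ n - 1) / (q - 1)) := by
  have hq : Nat.card F = q := by rw [Nat.card_eq_fintype_card, hF]
  have hc : Nat.card (ℙ F (Fin n → F)) = (q ^ n - 1) / (q - 1) := by
    rw [Projectivization.card'', hq, Nat.card_fun, hq, Nat.card_eq_fintype_card, Fintype.card_fin]
  rw [← hc]
  refine ⟨fun H hH => ?_, ?_⟩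
  · have hs := QuotientGroup.mk'_surjective (Subgroup.center (SpecialLinearGroup (Fin n) F))
    have := sl_min hn (by rwa [hq]) (H.comap (QuotientGroup.mk' _)) fun h =>
      hH (Subgroup.comap_injective hs (by rw [h, Subgroup.comap_top]))
    rwa [Subgroup.index_comap_of_surjective _ hs] at this
  · have : Nontrivial (Fin n) := Fin.nontrivial_iff_two_le.2 (by omega)
    obtain ⟨x, hx⟩ := exists_ne (0 : Fin n → F)
    exact ⟨MulAction.stabilizer _ (Projectivization.mk F x hx), MulAction.index_stabilizer_of_transitive _ _⟩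

end H25
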