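import Cfsg.Agent.H25.MiU5
import Cfsg.Agent.H11.Symp

/-! Minimal index of symplectic groups, structural lemmas: `Qs_eq`, `O_move`, `O_ZK`, `A_top`, `L1_le_H`
(vanishing of the cocycle), `symp_NL`, `symp_T`. -/

set_option autoImplicit false

namespace H25
open H11 H11.PForm H29 Module
open scoped commutatorElement

theorem comm_central {G : Type*} [Group G] {t t' g g' : G} (c1 : Commute t t') (c2 : Commute t g)
    (c3 : Commute t g') (c4 : Commute t' g) (c5 : Commute t' g') : ⁅t * g, t' * g'⁆ = ⁅g, g'⁆ := by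
  have h1 := ((c2.mul_right (c1.mul_right c3)).mul_right c2.inv_right).mul_inv_cancel
  have h2 := (((c4.mul_right c5).mul_right c4.inv_right).mul_right c5.inv_right).mul_inv_cancel
  calc ⁅t * g, t' * g'⁆ = t * (g * (t' * g') * g⁻¹) * t⁻¹ * (t' * g')⁻¹ := by
        rw [commutatorElement_def]; group
    _ = (g * t') * g' * g⁻¹ * g'⁻¹ * t'⁻¹ := by rw [h1]; group
    _ = t' * (g * g' * g⁻¹ * g'⁻¹) * t'⁻¹ := by rw [← c4.eq]; group
    _ = _ := h2

variable {F : Type*} [Field F] {V : Type*} [AddCommGroup V] [Module F V] {S : PForm (sympP F) V}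
  {H : Subgroup S.Isom} {u f : V}

theorem ecs {v : V} (h : S.h u v = 0) (a : F) : S.ECond u v a := ⟨trivial, h, trivial⟩

theorem eich_s {v : V} (h : S.h u v = 0) (a : F) (w : V) :
    (S.eich u v a).1 w = w + S.h u w • v + (S.h v w + a * S.h u w) • u := by
  rw [eich_apply (ecs h a)]; simp only [sympP_ε]; module

theorem Qs_eq {x : V} (h : S.h u x = 0) (a c μ : F) :
    S.eich u ((c + a * μ) • x) (2 * c * μ + a * μ * μ) * S.eich x 0 a = S.eich (x + μ • u) (c • u) a := by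
  refine isom_ext fun w => ?_
  rw [isom_mul_apply, symp_transv_apply, eich_s (by simp [h]),
    eich_s (by simp [S.h_swap_zero h, S.symp_h_self])]
  simp only [map_add, map_smul, LinearMap.add_apply, LinearMap.smul_apply, smul_eq_mul, h, S.symp_h_self]
  module

theorem eich_mul_s {v v' : V} (h : S.h u v = 0) (h' : S.h u v' = 0) (a a' : F) :
    S.eich u v a * S.eich u v' a' = S.eich u (v + v') (a + a' + S.h v v') := eich_mul (ecs h a) (ecs h' a')

theorem tv_of_two {v : V} (h : S.h u v = 0) {a a' : F} (k : S.eich u v a ∈ H) (k' : S.eich u v a' ∈ H) :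
    S.eich u 0 (a - a') ∈ H := by
  rw [← H.mul_mem_cancel_left k', eich_mul_s h (by simp)]
  simpa using k

theorem eich_shift_s {v : V} (h : S.h u v = 0) (a c : F) :
    S.eich u (v + c • u) a = S.eich u v (a + 2 * c) := by
  rw [← (eich_add_smul (ecs h (a + 2 * c)) c).2]
  congr 1
  simp; ring

theorem tv_pow_char_s (y : V) (b : F) : S.eich y 0 b ^ ringChar F = 1 := by
  have : ∀ n : ℕ, S.eich y 0 b ^ n = S.eich y 0 (n * b) := fun n => by
    induction n with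
    | zero => simp [eich_zero]
    | succ n ih => rw [pow_succ, ih, tv_mul (S.symp_sing y) trivial trivial]; simp [add_mul]
  simp [this, eich_zero]

/-- `H ∩ X u` covers `u^⊥ / u` -/
def OT (H : Subgroup S.Isom) (u : V) : Prop := ∀ x, S.h u x = 0 → ∃ a, S.eich u x a ∈ H

theorem K_pres (h2 : (2 : F) = 0) (h0 : u ≠ 0) {g : S.Isom} (hK : g ∈ Ks H u) (hg : g.1 u = u) {x : V}
    (hx : S.h u x = 0) {a : F} (k : S.eich u x a ∈ H) : S.eich u (g.1 x) a ∈ H := by
  obtain ⟨_, ⟨δ, α, rfl⟩, h⟩ := mem_Ks h0 hK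
  have h1 : S.h u (g.1 x) = 0 := by rw [← hx, ← isom_h g u x, hg]
  have := mul_mem (mul_mem h k) (inv_mem h)
  rw [conj_eich, isom_mul_apply, isom_mul_apply, hg, eich_apply_self] at this
  by_cases hc : S.ECond u δ α
  · rwa [eich_s hc.perp, h1, zero_smul, add_zero, eich_shift_s h1, h2, zero_mul, add_zero] at this
  · simpa [eich_junk hc] using this

/-- transvections with centre `u` times the stabiliser in `H` -/
def Zs (H : Subgroup S.Isom) (u : V) : Subgroup S.Isom where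
  carrier := {g | (∃ c : F, c ≠ 0 ∧ g.1 u = c • u) ∧ ∃ a, S.eich u 0 a * g ∈ H}
  one_mem' := ⟨⟨1, one_ne_zero, by simp⟩, 0, by simp [eich_zero]⟩
  mul_mem' := by
    rintro g g' ⟨⟨c, hc, e⟩, a, h⟩ ⟨⟨c', hc', e'⟩, a', h'⟩
    refine ⟨⟨c' * c, mul_ne_zero hc' hc, by simp [e, e', smul_smul]⟩, a + c * a' * c, ?_⟩
    have := conj_eich g u 0 a'
    rw [e, map_zero, tv_smul' (S.symp_sing u) trivial, RingHom.id_apply] at this
    rw [← tv_mul (S.symp_sing u) trivial trivial, ← this]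
    convert mul_mem h h' using 1
    group
  inv_mem' := by
    rintro g ⟨⟨c, hc, e⟩, a, h⟩
    have e' : g⁻¹.1 u = c⁻¹ • u := by
      rw [eq_inv_smul_iff₀ hc, ← map_smul, ← e, isom_inv_apply_self]
    refine ⟨⟨c⁻¹, inv_ne_zero hc, e'⟩, c⁻¹ * -a * c⁻¹, ?_⟩
    have := conj_eich g⁻¹ u 0 (-a)
    rw [e', map_zero, tv_smul' (S.symp_sing u) trivial, RingHom.id_apply,
      ← transv_inv (S.symp_sing u) trivial] at this
    rw [← this]
    convert inv_mem h using 1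
    group

variable [FiniteDimensional F V] (hS : S.Nondeg)
include hS

theorem O_move (h : OT H u) {v : V} (huv : S.h u v = 0) (hv : v ∉ F ∙ u) {c a : F}
    (k : S.eich v (c • u) a ∈ H) (μ : F) : S.eich u ((a * μ) • v) (2 * c * μ + a * μ * μ) ∈ H := by
  obtain ⟨x, hx, h1⟩ := hS.exists_perp_of_notMem' hv (-μ)
  rw [mem_perp_singleton] at hx
  obtain ⟨b, g⟩ := h x hx
  have := mul_mem (mul_mem (mul_mem g k) (inv_mem g)) (inv_mem k)
  have e := Qs_eq huv a c 0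
  simp only [mul_zero, add_zero, zero_smul] at e
  rw [conj_eich, map_smul, eich_apply_self, eich_s hx, huv, S.symp_symm v x, h1] at this
  simp only [zero_smul, add_zero, neg_neg, mul_zero] at this
  rw [← Qs_eq huv, ← e, mul_inv_rev, ← mul_assoc, mul_inv_cancel_right, eich_inv (ecs (by simp [huv]) 0),
    eich_mul_s (by simp [huv]) (by simp [huv])] at this
  simpa [add_smul, S.symp_h_self] using this

theorem O_ZK {w : F} (hw : w ≠ 0) (hw1 : w ≠ 1) (h : OT H u) {v : V} (huv : S.h u v = 0) (hT : Tp H v)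
    (h0 : v ≠ 0) : Tp H u := fun d _ => by
  by_cases hv : v ∈ F ∙ u
  · obtain ⟨c, rfl⟩ := Submodule.mem_span_singleton.1 hv
    have hc := left_ne_zero_of_smul h0
    simpa [smul_smul, hc] using hT.smul (S.symp_sing _) c⁻¹ d trivial
  have h1 := sub_ne_zero.2 hw1
  have := tv_of_two (by simp [huv])
    (O_move hS h huv hv (c := 0) (a := d / (w * (w - 1))) (by simpa using hT _ trivial) w)
    (by simpa using O_move hS h huv hv (c := 0) (a := d / (w * (w - 1)) * w) (by simpa using hT _ trivial) 1)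
  convert this using 2
  field_simp
  ring

theorem O_zero [Finite F] (h2 : (2 : F) = 0) {w : F} (hw : w ≠ 0) (hw1 : w ≠ 1) (h : OT H u) {v : V}
    (h' : OT H v) (huv : S.h u v = 0) (hv : v ∉ F ∙ u) (hu : u ∉ F ∙ v) (hT : ¬ Tp H v) {a : F}
    (k : S.eich v u a ∈ H) : a = 0 := by_contra fun ha => hT fun d _ => by
  haveI : CharP F 2 := CharTwo.of_one_ne_zero_of_two_eq_zero one_ne_zero h2
  have h1 : w * w - 1 ≠ 0 := fun h => hw1 (sub_eq_zero.1 ((pow_eq_zero_iff two_ne_zero).1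
    (by linear_combination h + (1 - w) * h2)))
  obtain ⟨s, hs⟩ := isSquare_of_charTwo' (d / (a * w * w * (w * w - 1)))
  have k1 := fun μ μ' => O_move hS h' (S.h_swap_zero huv) hu
    (O_move hS h huv hv (c := 1) (by simpa using k) μ) μ'
  simp only [h2, zero_mul, zero_add] at k1
  have := tv_of_two (by simp [S.h_swap_zero huv]) (k1 1 (w * w * s))
    (by convert k1 w s using 3; ring)
  convert this using 2
  rw [div_eq_iff (by simp [ha, hw, h1])] at hs
  linear_combination hs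

theorem L1_trans_s (Hy : S.IsHyp u f) {x y : V} (hx : x ∈ V1 S u f) (hy : y ∈ V1 S u f) (hx0 : x ≠ 0)
    (hy0 : y ≠ 0) : ∃ g ∈ L1 S u f, g.1 x = y := by
  obtain ⟨g, h1, h2, h3⟩ := hS.symp_step _ (notMem_uf Hy hx hx0) (notMem_uf Hy hy hy0)
    fun z hz => by rw [hx z hz, hy z hz]
  exact ⟨g, ⟨T_le_E h1, h2⟩, h3⟩

theorem L1_le_of_tv (Hy : S.IsHyp u f) {K : Subgroup S.Isom} (h : ∀ y ∈ V1 S u f, ∀ b, S.eich y 0 b ∈ K) :
    L1 S u f ≤ K := fun g hg => by
  obtain ⟨g, rfl⟩ : g ∈ (ext2 Hy.nondeg).range := ext2_range Hy.nondeg ▸ hg.2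
  have : (S.restrict (V1 S u f)).T ≤ K.comap (ext2 Hy.nondeg) := T_le_iff.2 fun y b _ _ _ => by
    simpa [ext2_eich] using h y y.2 b
  exact this ((V1_nondeg hS Hy).symp_T_eq_top ▸ trivial)

theorem A_top (Hy : S.IsHyp u f) {A : AddSubgroup V} (hA : ∀ a ∈ A, a ∈ V1 S u f)
    (h : ∀ a ∈ A, a ≠ 0 → ∀ y ∈ V1 S u f, S.h a y = 0 → ∀ b, ∀ x ∈ A, (S.eich y 0 b).1 x ∈ A)
    {a a' : V} (ha : a ∈ A) (ha' : a' ∈ A) (h0 : a ≠ 0) (hn : a' ∉ F ∙ a) {x : V} (hx : x ∈ V1 S u f) :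
    x ∈ A := by
  have key : ∀ a ∈ A, a ≠ 0 → ∀ a' ∈ A, ∀ y₀ ∈ V1 S u f, S.h a y₀ = 0 → S.h a' y₀ = 1 →
      ∀ y ∈ V1 S u f, S.h a y = 0 → y ∈ A := fun a ha h0 a' ha' y₀ hy₀ h1 h2 => by
    have k : ∀ y ∈ V1 S u f, S.h a y = 0 → S.h y a' ≠ 0 → y ∈ A := fun y hy h1 h2 => by
      simpa [symp_transv_apply, h2] using sub_mem (h a ha h0 y hy h1 (S.h y a')⁻¹ a' ha') ha'
    have h3 : S.h y₀ a' ≠ 0 := fun h => by simp [S.h_swap_zero h] at h2
    intro y hy h4
    by_cases h5 : S.h y a' = 0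
    · simpa using sub_mem (k _ (add_mem hy hy₀) (by simp [h1, h4]) (by simpa [h5])) (k _ hy₀ h1 h3)
    · exact k y hy h4 h5
  have hW := V1_nondeg hS Hy
  obtain ⟨y, hy, h1, h2⟩ := exists_mem_perp_h_eq hW (hA a ha) (hA a' ha') hn 1
  obtain ⟨y', hy', h1', h2'⟩ := exists_mem_perp_h_eq hW (hA a' ha') (hA a ha) (fun h => by
    obtain ⟨c, rfl⟩ := Submodule.mem_span_singleton.1 h
    simp [left_ne_zero_of_smul h0, h2] at h1) 1
  simpa using add_mem (key a' ha' (by rintro rfl; simp at h2) a ha y' hy' h1' h2' _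
    (sub_mem hx (Submodule.smul_mem _ (S.h a' x) hy)) (by simp [h2]))
    (key a ha h0 a' ha' y hy h1 h2 _ (Submodule.smul_mem _ (S.h a' x) hy) (by simp [h1]))

theorem L1_le_H (Hy : S.IsHyp u f) (hR : ∀ r ∈ Rs H Hy, r = 0) (hK : L1 S u f ≤ Ks H u)
    (hp : commutator (S.restrict (V1 S u f)).Isom = ⊤) {s : S.Isom} (hs : s ∈ Ks H u) {ν κ : F} (hν : ν ≠ 0)
    (h1 : 1 - ν * κ ≠ 0) (su : s.1 u = ν • u) (sf : s.1 f = ν⁻¹ • f) (sx : ∀ x ∈ V1 S u f, s.1 x = κ • x) :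
    ∃ f', S.IsHyp u f' ∧ L1 S u f' ≤ H := by
  obtain ⟨δ, hδ, α, -, k⟩ := exists_coc2 Hy hs
  have hu := S.symp_sing u
  have cs : ∀ w ∈ V1 S u f, ∀ a, ∃ b,
      S.eich u w a * (s * (S.eich u w a)⁻¹ * s⁻¹) = S.eich u ((1 - ν * κ) • w) b := fun w hw a => by
    have h := (mem_V1.1 hw).1
    rw [eich_inv (ecs h a), conj_eich, su, map_neg, sx w hw, eich_smul (ecs (by simp [h]) _),
      eich_mul_s h (by simp [h])]
    exact ⟨_, by congr 1; simp only [RingHom.id_apply]; module⟩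
  have hZ : ∀ a, S.eich u 0 a ∈ Zs H u := fun a => ⟨⟨1, one_ne_zero, by simp [eich_apply_self]⟩, -a, by
    simp [tv_mul hu trivial trivial, eich_zero]⟩
  set y := S.eich u ((1 - ν * κ)⁻¹ • δ) 0
  have key : ∀ g ∈ L1 S u f, y * g * y⁻¹ ∈ Zs H u := fun g hg => by
    have hg' := mem_L1.1 hg
    refine ht_trick (X := S.X u) (s := s) (fun x hx x' hx' => ?_)
      (fun x hx => conj_mem_X Hy.e_ne (mem_stab_of_smul su) hx) (eich_mem_X _ _ _) ?_ (fun x hx h => ?_)
      (fun x hx => conj_mem_X Hy.e_ne (mem_stab_of_smul (c := 1) (by simp [hg'.2.1])) hx) ?_ ?_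
    · obtain ⟨a, e⟩ := commutator_X_le u (Subgroup.commutator_mem_commutator hx hx')
      rw [← commutatorElement_def, e]
      exact hZ a
    · obtain ⟨b, e⟩ := cs _ (Submodule.smul_mem _ (1 - ν * κ)⁻¹ hδ) 0
      rw [smul_smul, mul_inv_cancel₀ h1, one_smul] at e
      have e2 : y * s * y⁻¹ = S.eich u 0 (b - α) * (S.eich u δ α * s) := by
        rw [← mul_assoc, eich_mul_s (by simp) (mem_V1.1 hδ).1]
        simp only [zero_add, sub_add_cancel, map_zero, LinearMap.zero_apply, add_zero, ← e]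
        simp [y, mul_assoc]
      exact e2 ▸ mul_mem (hZ _) ⟨⟨ν, hν, by simp [su, eich_apply_self]⟩, 0, by simpa [eich_zero]⟩
    · obtain ⟨w, hw, a, -, rfl⟩ := IsHyp.exists_X Hy hx
      obtain ⟨b, e⟩ := cs w hw a
      obtain ⟨-, c, h⟩ := e ▸ h
      rw [eich_mul_s (by simp) (by simp [(mem_V1.1 hw).1]), zero_add] at h
      obtain rfl : w = 0 := by
        simpa [h1] using hR _ (mem_Rs' Hy (Submodule.smul_mem _ _ hw) (ecs (by simp [(mem_V1.1 hw).1]) _) h)
      exact hZ a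
    · exact Hy.isom_ext (by simp [su, hg'.2.1]) (by simp [sf, hg'.2.2]) fun w hw => by
        simp [sx w hw, sx _ (L1_V1 hg hw)]
    · obtain ⟨x, hx, h⟩ := mem_Ks Hy.e_ne (hK hg)
      exact ⟨x, hx, ⟨1, one_ne_zero, by simp [hg'.2.1, X_apply_self hx]⟩, 0, by simpa [eich_zero]⟩
  have hE := hS.symp_E_eq_top
  have y1 : y.1 u = u := eich_apply_self _ _ _
  have y2 : y⁻¹.1 u = u := X_apply_self (inv_mem (eich_mem_X _ _ _))
  have key2 : ⊤ ≤ H.comap ((MulAut.conj y).toMonoidHom.comp (ext2 Hy.nondeg)) := by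
    rw [← hp, commutator, Subgroup.commutator_le]
    intro g _ g' _
    have m : ∀ g, ext2 Hy.nondeg g ∈ L1 S u f := fun g => ⟨hE ▸ trivial, ext2_range Hy.nondeg ▸ ⟨g, rfl⟩⟩
    have c : ∀ a g, Commute (S.eich u 0 a) (y * ext2 Hy.nondeg g * y⁻¹) := fun a g => by
      rw [Commute, SemiconjBy, eq_comm, ← mul_inv_eq_iff_eq_mul, conj_eich, map_zero]
      rw [isom_mul_apply, isom_mul_apply, y2, (mem_L1.1 (m g)).2.1, y1]
    obtain ⟨-, a, k1⟩ := key _ (m g)
    obtain ⟨-, a', k2⟩ := key _ (m g')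
    have := mul_mem (mul_mem (mul_mem k1 k2) (inv_mem k1)) (inv_mem k2)
    rw [← commutatorElement_def, comm_central (by simp [Commute, SemiconjBy, tv_mul hu trivial trivial, add_comm])
      (c a g) (c a g') (c a' g) (c a' g')] at this
    rwa [Subgroup.mem_comap, map_commutatorElement]
  refine ⟨y.1 f, by simpa [y1] using Hy.map y, fun g hg => ?_⟩
  have hg' := mem_L1.1 hg
  obtain ⟨g', e⟩ : y⁻¹ * g * y ∈ (ext2 Hy.nondeg).range := ext2_range Hy.nondeg ▸ (mem_L1.2 ⟨hE ▸ trivial, by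
    rw [isom_mul_apply, isom_mul_apply, y1, hg'.2.1, y2], by simp [hg'.2.2]⟩).2
  simpa [e, mul_assoc] using key2 (x := g') trivial

theorem symp_NL (Hy : S.IsHyp u f) (h4 : finrank F V = 4) {r : V} (h0 : r ≠ 0) (hr : ∀ c : F, c • r ∈ Rs H Hy)
    {g : S.Isom} (hg : g ∈ Ks H u) (hL : g ∈ L1 S u f) {κ : F} (e : g.1 r = κ • r) (hκ : κ * κ - 1 ≠ 0)
    (hK : ∀ b, S.eich r 0 b ∈ Ks H u)
    (hD : (2 : F) ≠ 0 ∧ ¬ Tp H u ∨ (2 : F) = 0 ∧ ∀ d ∈ Ds H Hy.sing_e, d = 0) : ∃ z, z ≠ 0 ∧ Big H z u := by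
  have hV : r ∈ V1 S u f := by simpa using (hr 1).2
  have h1 := (mem_V1.1 hV).1
  have hκ1 : κ - 1 ≠ 0 := fun h => hκ (by linear_combination (κ + 1) * h)
  obtain ⟨δ, -, α, hc, k⟩ := exists_coc2 Hy hg
  have ku : (S.eich u δ α * g).1 u = u := by rw [isom_mul_apply, (mem_L1.1 hL).2.1, eich_apply_self]
  have kr : (S.eich u δ α * g).1 r = κ • r + (κ * S.h δ r) • u := by
    rw [isom_mul_apply, e, eich_s hc.perp]; simp [h1]
  generalize S.eich u δ α * g = k₀, S.h δ r = μ at k ku kr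
  obtain ⟨z, hz⟩ : ∃ z, z = (κ - 1) • r + (κ * μ) • u := ⟨_, rfl⟩
  have h2 : S.h u z = 0 := by simp [hz, h1, Hy.h_ee]
  have kz : k₀.1 z = κ • z := by rw [hz, map_add, map_smul, map_smul, ku, kr]; module
  have s1 : ∀ c : F, S.eich u (c • z) 0 ∈ H := fun c => by
    obtain ⟨a, c1, k1⟩ := (hr c).1
    have := mul_mem (mul_mem (mul_mem k k1) (inv_mem k)) (inv_mem k1)
    rw [conj_eich, ku, map_smul, kr, eich_inv c1, eich_mul_s (by simp [h1, Hy.h_ee]) (by simp [h1])] at this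
    convert this using 2
    · rw [hz]; module
    · simp [h1, S.symp_h_self]
  have ln : ∀ v, S.h u v = 0 → S.h z v = 0 → ∃ i j : F, v = i • z + j • u := fun v h3 h5 => by
    have := finrank_V1 Hy
    obtain ⟨c, hc⟩ := Submodule.mem_span_singleton.1 (mem_of_sing3 (V1_nondeg hS Hy) (by omega) hV
      (IsHyp.sub_mem_V1 Hy h3) h0 trivial trivial (by simpa [hz, h3, hκ1, S.h_swap_zero h1] using h5))
    refine ⟨c / (κ - 1), -(c / (κ - 1) * (κ * μ)) - S.h f v, ?_⟩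
    rw [hz, smul_add, smul_smul, div_mul_cancel₀ _ hκ1, hc, sympP_ε]
    module
  have s2 : ∀ b, ∃ β, S.eich u 0 β * S.eich z 0 b ∈ H := fun b => by
    by_cases hb : b = 0
    · exact ⟨0, by simp [hb, eich_zero]⟩
    have e1 := Qs_eq (S := S) (u := u) (x := (κ - 1) • r) (by simp [h1]) b 0 (κ * μ)
    rw [← hz, zero_smul, tv_smul' (S.symp_sing r) trivial] at e1
    obtain ⟨δ, -, α, hc, k1⟩ := exists_coc2 Hy (e1 ▸ mul_mem (le_sup_left (a := S.X u) (eich_mem_X _ _ _)) (hK _))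
    have h3 : S.h δ z = 0 := by_contra fun h => by
      rcases hD with ⟨h5, h6⟩ | ⟨h5, h6⟩
      · refine h6 fun d _ => ?_
        have := mul_mem (mul_mem k1 (s1 (d / (2 * S.h δ z)))) (inv_mem k1)
        rw [conj_eich, isom_mul_apply, isom_mul_apply, map_smul, eich_apply_self,
          eich_apply_of_perp_perp (S.h_swap_zero h2) (by simp), eich_apply_self, eich_s hc.perp] at this
        simp only [map_smul, h2, smul_zero, zero_smul, add_zero, mul_zero, smul_eq_mul] at this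
        rw [eich_shift_s (by simp [h2])] at this
        convert tv_of_two (by simp [h2]) this (s1 _) using 2
        field_simp; ring
      · have := mul_mem k1 k1
        rw [show ∀ x t : S.Isom, x * t * (x * t) = x * (t * x * t⁻¹) * (t * t) from fun _ _ => by group,
          conj_eich, tv_mul (S.symp_sing z) trivial trivial, show b + b = 0 by linear_combination b * h5,
          eich_zero, mul_one, eich_apply_of_perp_perp (S.h_swap_zero h2) (by simp), symp_transv_apply,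
          eich_mul_s hc.perp (by simp [h2, hc.perp]), ← add_assoc, ← two_smul F δ, h5, zero_smul,
          zero_add] at this
        have := h6 _ ⟨trivial, tv_of_two (by simp [h2]) this (s1 _)⟩
        simp only [map_add, map_smul, S.symp_h_self, S.symp_symm δ z, smul_eq_mul] at this
        exact mul_ne_zero hb (mul_ne_zero h h) (by linear_combination -this + α * h5)
    obtain ⟨i, j, rfl⟩ := ln δ hc.perp (S.h_swap_zero h3)
    refine ⟨α + 2 * j, ?_⟩
    have := mul_mem (s1 (-i)) k1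
    rw [eich_shift_s (by simp [h2]), ← mul_assoc, eich_mul_s (by simp [h2]) (by simp [h2])] at this
    simpa [S.symp_h_self] using this
  have s3 : ∀ b, S.eich z 0 b ∈ H := fun b => by
    obtain ⟨β, k1⟩ := s2 (b / (κ * κ - 1))
    have := mul_mem (inv_mem k1) (mul_mem (mul_mem k k1) (inv_mem k))
    rw [show ∀ x t t' : S.Isom, (t * t')⁻¹ * (x * (t * t') * x⁻¹) = t'⁻¹ * (t⁻¹ * (x * t * x⁻¹)) * (x * t' * x⁻¹)
      from fun _ _ _ => by group, conj_eich, conj_eich, ku, kz, map_zero, inv_mul_cancel, mul_one,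
      tv_smul' (S.symp_sing z) trivial, transv_inv (S.symp_sing z) trivial,
      tv_mul (S.symp_sing z) trivial trivial] at this
    convert this using 2
    simp only [RingHom.id_apply]
    linear_combination -div_mul_cancel₀ b hκ
  refine ⟨z, fun h => ?_, S.h_swap_zero h2, fun v a hc h3 => ?_⟩
  · obtain ⟨r', hr', R⟩ := exists_partner_mem (V1_nondeg hS Hy) hV h0 trivial
    simpa [hz, R.h_fe, S.h_swap_zero (mem_V1.1 hr').1, sub_eq_zero, (sub_ne_zero.1 hκ1).symm] using congrArg (S.h r') h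
  · obtain ⟨i, j, rfl⟩ := ln v h3 hc.perp
    have e := Qs_eq h2 (a + 2 * i) j 0
    simp only [mul_zero, add_zero, zero_smul] at e
    rw [add_comm, eich_shift_s (by simp [S.h_swap_zero h2]), ← e]
    exact mul_mem (s1 _) (s3 _)

variable [Finite F] [Finite V] (hH : H ≤ S.E) (Hy : S.IsHyp u f) {ψ : AddChar F ℂ} (hψ : ∃ c, ψ c ≠ 1)

theorem symp_cnt' {a : V} (ha : a ∈ As ψ H Hy) (h0 : a ≠ 0) {k : ℕ}
    (hk : k ≤ (Ks H u).relIndex (L1 S u f ⊓ MulAction.stabilizer _ a)) :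
    Nat.card (V1 S u f) * k + (Ks H u).relIndex (L1 S u f) ≤
      (Ks H u).relIndex (L1 S u f) * Nat.card (As ψ H Hy) + k := by
  have h1 := orb_count (Ks H u) (L1 S u f) a (O := ((V1 S u f).toAddSubgroup : Set V) \ {0})
    (B := (As ψ H Hy : Set V) \ {0}) (Set.toFinite _) (fun x hx => L1_trans_s hS Hy ha.1 hx.1 h0 hx.2)
    fun g hK hL => ⟨As_inv1 Hy hK hL ha, by simpa [isom_smul_def] using h0⟩
  have h2 : _ = Nat.card (V1 S u f) := ncard_diff_zero (V1 S u f).toAddSubgroup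
  rw [← h2, ← ncard_diff_zero (As ψ H Hy)]
  nlinarith [Nat.mul_le_mul_left (((V1 S u f).toAddSubgroup : Set V) \ {0}).ncard hk]

include hψ in
theorem A_cases (h : ∀ a ∈ As ψ H Hy, a ≠ 0 → ∀ y ∈ V1 S u f, S.h a y = 0 → ∀ b, S.eich y 0 b ∈ Ks H u)
    {a : V} (ha : a ∈ As ψ H Hy) (h0 : a ≠ 0) : (∀ x ∈ As ψ H Hy, x ∈ F ∙ a) ∨
      Nat.card (As ψ H Hy) = Nat.card (V1 S u f) ∧ (∀ r ∈ Rs H Hy, r = 0) ∧ L1 S u f ≤ Ks H u := by
  refine or_iff_not_imp_left.2 fun hn => ?_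
  push Not at hn
  obtain ⟨a', ha', hn⟩ := hn
  have h1 := fun x => A_top hS Hy (A := As ψ H Hy) (fun a ha => ha.1) (fun a ha h0 y hy h1 b x hx =>
    As_inv1 Hy (h a ha h0 y hy h1 b) (tv_mem_L1 hy b) hx) ha ha' h0 hn (x := x)
  have h2 : As ψ H Hy = (V1 S u f).toAddSubgroup := le_antisymm (fun a ha => ha.1) h1
  refine ⟨by rw [h2]; rfl, fun r hr => psi_nondeg' hψ (V1_nondeg hS Hy) r hr.2 fun x hx => (h1 x hx).2 r hr,
    L1_le_of_tv hS Hy fun y hy b => ?_⟩
  by_cases hy0 : y = 0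
  · simp [hy0, eich_zero_left]
  · exact h y (h1 y hy) hy0 y hy (S.symp_h_self y) b

omit hS [FiniteDimensional F V] in
theorem k_ge {a y : V} (hy : y ∈ V1 S u f) (h : S.h a y = 0) {b : F} (hK : S.eich y 0 b ∉ Ks H u) :
    ringChar F ≤ (Ks H u).relIndex (L1 S u f ⊓ MulAction.stabilizer _ a) :=
  le_relIndex_of_prime (CharP.char_is_prime F _) (tv_pow_char_s y b)
    ⟨tv_mem_L1 hy b, eich_apply_of_perp_perp (S.h_swap_zero h) (by simp)⟩ hK

include hH in
theorem symp_T (hB : ∀ a, ¬ Big H u a) (hT : Tp H u) : Nat.card (V1 S u f) ≤ loc H u ∧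
    (2 * Nat.card (V1 S u f) ≤ loc H u + 1 ∨ (∀ r ∈ Rs H Hy, r = 0) ∧ Lst S u f ≤ Ms H u) := by
  obtain ⟨ψ, hψ⟩ := exists_psi (F := F)
  have h1 := main_T hS hH Hy hψ
  have h2 := Nat.mul_le_mul_left (Nat.card (As ψ H Hy)) (m1_le (H := H) fun g => gm_L1 (u := u) (f := f))
  have h3 := relIndex_pos' (Ks H u) (L1 S u f)
  have hA : ∀ a ∈ V1 S u f, ¬ ∀ x ∈ As ψ H Hy, x ∈ F ∙ a := fun a ha h => hB a (big_of_T hS Hy hψ hT ha h)
  obtain ⟨a, ha, h0⟩ : ∃ a ∈ As ψ H Hy, a ≠ 0 := by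
    by_contra! h
    exact hA 0 (zero_mem _) fun x hx => by simp [h x hx]
  refine ⟨by nlinarith [symp_cnt' hS Hy ha h0 (relIndex_pos' _ _)], ?_⟩
  by_cases h : ∀ a ∈ As ψ H Hy, a ≠ 0 → ∀ y ∈ V1 S u f, S.h a y = 0 → ∀ b, S.eich y 0 b ∈ Ks H u
  · obtain ⟨h4, h5, -⟩ := (A_cases hS Hy hψ h ha h0).resolve_left (hA a ha.1)
    refine or_iff_not_imp_right.2 fun h6 => ?_
    nlinarith [two_le_relIndex fun h => h6 ⟨h5, h⟩]
  · push Not at h
    obtain ⟨a, ha, h0, y, hy, h4, b, h5⟩ := h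
    have := symp_cnt' hS Hy ha h0 ((CharP.char_is_prime F _).two_le.trans (k_ge hy h4 h5))
    exact Or.inl (by nlinarith)

end H25
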