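import Cfsg.Agent.H25.MiSp1
import Cfsg.Agent.H29.Bridge

/-! Minimal index of symplectic groups: the local analysis `symp_N` at a point that is not of type `Tp`. -/

set_option autoImplicit false

namespace H25
open H11 H11.PForm H29 Module

theorem nsp1 {q N x L : ℕ} (hq : 3 ≤ q) (hN : 2 ≤ N) (h1 : q * x ≤ L) (h2 : 2 * N ≤ x + 1) :
    q * q * N ≤ L * (q - 1) + 1 := by
  obtain ⟨t, rfl⟩ := Nat.exists_eq_add_of_le' hq
  obtain ⟨n, rfl⟩ := Nat.exists_eq_add_of_le' hN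
  have := Nat.mul_le_mul_right (t + 2) ((Nat.mul_le_mul_left (t + 3) (show 2 * n + 3 ≤ x by omega)).trans h1)
  change _ ≤ L * (t + 2) + 1
  nlinarith [Nat.zero_le (t * t * n), Nat.zero_le (t * n)]

theorem nsp2 {q N x L : ℕ} (hq : 4 ≤ q) (hN : q * q ≤ N) (h1 : q * x ≤ 2 * L) (h2 : 3 * N ≤ x + 2) :
    q * q * N ≤ L * (q - 1) + 1 := by
  obtain ⟨t, rfl⟩ := Nat.exists_eq_add_of_le' hq
  obtain ⟨n, rfl⟩ := Nat.exists_eq_add_of_le hN
  have := Nat.mul_le_mul_right (t + 3) ((Nat.mul_le_mul_left (t + 4)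
    (show 3 * (t * t + 8 * t + n) + 46 ≤ x by nlinarith)).trans h1)
  change _ ≤ L * (t + 3) + 1
  nlinarith [Nat.zero_le (t * t * n), Nat.zero_le (t * n), Nat.zero_le (t * t * t * t), Nat.zero_le (t * t * t)]

theorem nsp3 {q N x L : ℕ} (hq : 3 ≤ q) (hN : q ≤ N) (h1 : q * (q - 1) * x ≤ (q - 2) * L)
    (h2 : q * N ≤ (q - 1) * x + q) : q * q * N ≤ L * (q - 1) + 1 := by
  obtain ⟨t, rfl⟩ := Nat.exists_eq_add_of_le' hq
  obtain ⟨n, rfl⟩ := Nat.exists_eq_add_of_le hN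
  change (t + 3) * (t + 2) * x ≤ (t + 1) * L at h1
  change _ ≤ (t + 2) * x + _ at h2
  change _ ≤ L * (t + 2) + 1
  refine Nat.le_of_mul_le_mul_left ?_ (Nat.succ_pos t)
  have h3 := Nat.mul_le_mul_left (t + 2) h1
  have h4 := Nat.mul_le_mul_left ((t + 3) * (t + 2)) h2
  simp only [Nat.succ_eq_add_one]
  nlinarith [Nat.zero_le (t * t * n), Nat.zero_le (t * n)]

theorem nsp4 {q N x L : ℕ} (hq : 3 ≤ q) (hN : q * q ≤ N) (h1 : q * x ≤ L)
    (h2 : (q - 1) * N ≤ (q - 2) * x + (q - 1)) : q * q * N ≤ L * (q - 1) + 1 := by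
  obtain ⟨t, rfl⟩ := Nat.exists_eq_add_of_le' hq
  obtain ⟨n, rfl⟩ := Nat.exists_eq_add_of_le hN
  change (t + 2) * _ ≤ (t + 1) * x + (t + 2) at h2
  change _ ≤ L * (t + 2) + 1
  refine Nat.le_of_mul_le_mul_left ?_ (Nat.succ_pos t)
  have h3 := Nat.mul_le_mul_left ((t + 1) * (t + 2)) h1
  have h4 := Nat.mul_le_mul_left ((t + 3) * (t + 2)) h2
  simp only [Nat.succ_eq_add_one]
  nlinarith [Nat.zero_le (t * t * n), Nat.zero_le (t * n)]

theorem nsp5 {k N α m : ℕ} (hN : 1 ≤ N) (hα : α ≤ k + 1) (h : N * 1 + m ≤ m * α + 1) :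
    (k + 1) * N ≤ k * (α * m) + (k + 1) := by
  obtain ⟨n, rfl⟩ := Nat.exists_eq_add_of_le' hN
  obtain ⟨j, hj⟩ := Nat.exists_eq_add_of_le hα
  have := Nat.mul_le_mul_left (k + 1) h
  nlinarith [Nat.zero_le (j * m)]

theorem nsp6 {q m L : ℕ} (hq : 4 ≤ q) (h1 : q * (q * m) ≤ L ∨ 7 ≤ q ∧ q * (q * m) ≤ 2 * L)
    (h2 : q * q ≤ m * 2 + 1) : q * q * (q * q) ≤ L * (q - 1) + 1 := by
  have h0 : 0 < q * q := by positivity
  rcases h1 with h | ⟨h3, h⟩
  · obtain ⟨t, rfl⟩ := Nat.exists_eq_add_of_le' hq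
    change _ ≤ L * (t + 3) + 1
    have : (t + 4) * (t + 4) ≤ m * (t + 3) := by nlinarith [Nat.zero_le (t * t * t)]
    nlinarith [Nat.mul_le_mul_left ((t + 4) * (t + 4)) this, Nat.mul_le_mul_right (t + 3) h]
  · obtain ⟨t, rfl⟩ := Nat.exists_eq_add_of_le' h3
    change _ ≤ L * (t + 6) + 1
    have : 2 * ((t + 7) * (t + 7)) ≤ m * (t + 6) := by nlinarith [Nat.zero_le (t * t * t)]
    nlinarith [Nat.mul_le_mul_left ((t + 7) * (t + 7)) this, Nat.mul_le_mul_right (t + 6) h]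

theorem nsp7 {q N L : ℕ} (hq : 3 ≤ q) (h1 : q * (q - 1) * N ≤ (q - 2) * L) : q * q * N ≤ L * (q - 1) + 1 := by
  obtain ⟨t, rfl⟩ := Nat.exists_eq_add_of_le' hq
  change (t + 3) * (t + 2) * N ≤ (t + 1) * L at h1
  change _ ≤ L * (t + 2) + 1
  refine Nat.le_of_mul_le_mul_left ?_ (Nat.succ_pos t)
  have h3 := Nat.mul_le_mul_left (t + 2) h1
  simp only [Nat.succ_eq_add_one]
  nlinarith [Nat.zero_le (t * N)]

variable {F : Type*} [Field F] {V : Type*} [AddCommGroup V] [Module F V] {S : PForm (sympP F) V}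
  {H : Subgroup S.Isom} {u f : V} [FiniteDimensional F V] (hS : S.Nondeg)

omit [FiniteDimensional F V] in
theorem perp_comm_s {r r' : V} (h : r ∈ BSet H (S.symp_sing u)) (h' : r' ∈ BSet H (S.symp_sing u)) :
    S.eich u 0 (2 * S.h r r') ∈ H := by
  simpa [two_mul] using eich_comm_mem h h'

include hS in
theorem tor_Lst (Hy : S.IsHyp u f) (ν : Fˣ) : gm (Hy.tor ν⁻¹) ν ∈ Lst S u f :=
  ⟨hS.symp_E_eq_top ▸ trivial, by simp [-map_inv, smul_smul], by simp [-map_inv]⟩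

theorem exists_hyp_s {W : Submodule F V} (hW : (S.restrict W).Nondeg) (h : 0 < finrank F W) :
    ∃ r ∈ W, ∃ r' ∈ W, S.IsHyp r r' := by
  obtain ⟨r, hr, h0⟩ := (Submodule.ne_bot_iff W).1 (by rintro rfl; simp at h)
  exact ⟨r, hr, exists_partner_mem hW hr h0 trivial⟩

include hS in
theorem OT.two (h : OT H u) (Hy : S.IsHyp u f) (h3 : 3 ≤ finrank F V) (hN : ¬ Tp H u) : (2 : F) = 0 :=
  by_contra fun h2 => hN fun d _ => by
  have := finrank_V1 Hy
  obtain ⟨r, hr, r', hr', R⟩ := exists_hyp_s (V1_nondeg hS Hy) (by omega)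
  obtain ⟨a, k⟩ := h r (mem_V1.1 hr).1
  obtain ⟨a', k'⟩ := h ((d / 2) • r') (by simp [(mem_V1.1 hr').1])
  simpa [R.h_ef, mul_div_cancel₀ _ h2] using perp_comm_s ⟨a, ecs (mem_V1.1 hr).1 a, k⟩
    ⟨a', ecs (by simp [(mem_V1.1 hr').1]) a', k'⟩

variable [Finite F] [Finite V] (hH : H ≤ S.E) (Hy : S.IsHyp u f) {ψ : AddChar F ℂ} (hψ : ∃ c, ψ c ≠ 1)
  {q : ℕ} (hF : Nat.card F = q)

include hS hH hψ hF in
theorem symp_tor (hN : ¬ Tp H u) :
    ((2 : F) = 0 → q * (Nat.card (As ψ H Hy) * (Ks H u).relIndex (L1 S u f)) ≤ loc H u) ∧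
    q * (Nat.card (As ψ H Hy) * (Ks H u).relIndex (L1 S u f)) ≤ 2 * loc H u ∧
    ((∃ d ∈ Ds H Hy.sing_e, d ≠ 0) → 4 ≤ q ∧ ((2 : F) ≠ 0 → 7 ≤ q) ∧ ((2 : F) = 0 →
      q * (q - 1) * (Nat.card (As ψ H Hy) * (Ks H u).relIndex (L1 S u f)) ≤ (q - 2) * loc H u)) := by
  obtain ⟨c, h1, h2, h4, a, -, ha0, h5⟩ := tor_ineq hS hH Hy hψ (fun _ _ => trivial)
    (fun ν => ⟨_, tor_Lst hS Hy ν, rfl⟩) hN
  rw [symp_card_Λ, hF] at h1
  have h6 := ncard_le_mul_of_fibers (fun x : F => x * a * x) (((⊤ : AddSubgroup F) : Set F) \ {0})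
    {x | ∃ ν : Fˣ, x = ν * a * RingHom.id F ν} (fun x hx => ⟨Units.mk0 x hx.2, rfl⟩) ({1, -1} : Set F).ncard (by
      rintro _ ⟨ν, rfl⟩
      refine le_trans (Set.ncard_le_ncard fun x hx => ?_) (Set.ncard_image_le (f := (· * (ν : F))))
      have e : x * a * x = ν * a * ν := hx.2
      have : (x - ν) * (x + ν) = 0 := mul_left_cancel₀ ha0 (by linear_combination e)
      rcases mul_eq_zero.1 this with h | h
      exacts [⟨1, by simp, by linear_combination -h⟩, ⟨-1, by simp, by linear_combination -h⟩])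
  have h7 := ncard_diff_zero (⊤ : AddSubgroup F)
  rw [AddSubgroup.card_top, hF] at h7
  replace h5 := (Nat.mul_le_mul_right _ ((show q - 1 = _ by omega).trans_le h6)).trans
    ((mul_assoc _ _ _).trans_le (Nat.mul_le_mul_left _ h5))
  have h8 := fun h : (2 : F) = 0 => (by simpa [ncard_pm_two h] using h5 :
    (q - 1) * (Ks H u).relIndex (L1 S u f) ≤ (Ms H u).relIndex (Lst S u f) * (c - 1))
  refine ⟨fun h => le_trans ?_ h4, le_trans ?_ (Nat.mul_le_mul_left 2 h4), fun ⟨d, hd, hd0⟩ => ?_⟩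
  · nlinarith [Nat.mul_le_mul_left (Nat.card (As ψ H Hy)) (num_c (k := 0) h1 h2 (h8 h) Nat.card_pos zero_le_one)]
  · nlinarith [Nat.mul_le_mul_left (Nat.card (As ψ H Hy)) (num_c (k := 0) h1 h2 (h5.trans ((Nat.mul_le_mul_right _
      ncard_pm_le).trans_eq (mul_assoc _ _ _).symm)) Nat.card_pos zero_le_one)]
  have h9 : 2 ≤ Nat.card (Ds H Hy.sing_e) := Finite.one_lt_card_iff_nontrivial.2
    ((AddSubgroup.nontrivial_iff_exists_ne_zero _).2 ⟨d, hd, hd0⟩)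
  refine ⟨by nlinarith, fun h => ?_, fun h => ?_⟩
  · have := mt two_eq_zero_iff_card.2 h
    rw [hF, ← h1, Nat.mul_mod] at this
    have : 3 ≤ c ∧ 3 ≤ Nat.card (Ds H Hy.sing_e) := by
      constructor <;> by_contra h
      · simp [show c = 2 by omega] at this
      · simp [show Nat.card (Ds H Hy.sing_e) = 2 by omega] at this
    nlinarith
  · obtain ⟨c, rfl⟩ := Nat.exists_eq_add_of_le' h2
    obtain ⟨t, rfl⟩ := Nat.exists_eq_add_of_le' (show 2 ≤ q by nlinarith)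
    have k1 := Nat.mul_le_mul_left ((t + 2) * Nat.card (As ψ H Hy)) (h8 h)
    have k2 := Nat.mul_le_mul_left (Nat.card (As ψ H Hy) * (Ms H u).relIndex (Lst S u f))
      (show (t + 2) * (c + 1) ≤ t * (c + 2) by nlinarith)
    have k3 := Nat.mul_le_mul_left t h4
    simp only [Nat.add_one_sub_one, Nat.add_sub_cancel] at *
    nlinarith

include hS hψ in
theorem symp_A0 (hA : ∀ a ∈ As ψ H Hy, a = 0) : OT H u := fun x hx => by
  have := BSet_add_smul (mem_Rs_of (H := H) hS hψ Hy (IsHyp.sub_mem_V1 Hy hx) fun a ha => by simp [hA a ha]).1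
    ((sympP F).ε * S.h f x)
  rw [sub_add_cancel] at this
  obtain ⟨a, -, k⟩ := this
  exact ⟨a, k⟩

include hS hH hψ hF in
theorem symp_line (hq : 3 ≤ q) (hd : 6 ≤ finrank F V ∨ finrank F V = 4 ∧ 4 ≤ q) (hN : ¬ Tp H u)
    (h : ∀ a ∈ As ψ H Hy, a ≠ 0 → ∀ y ∈ V1 S u f, S.h a y = 0 → ∀ b, S.eich y 0 b ∈ Ks H u)
    {a : V} (ha : a ∈ As ψ H Hy) (h0 : a ≠ 0) (hl : ∀ x ∈ As ψ H Hy, x ∈ F ∙ a) :
    q * q * Nat.card (V1 S u f) ≤ loc H u * (q - 1) + 1 ∨ finrank F V = 4 ∧ (∃ z, z ≠ 0 ∧ Big H z u) ∧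
      ((∀ d ∈ Ds H Hy.sing_e, d = 0) → q * q * (q + 1) ≤ loc H u) := by
  refine or_iff_not_imp_left.2 fun hn => ?_
  obtain ⟨t1, t2, t3⟩ := symp_tor hS hH Hy hψ hF hN
  have c1 := symp_cnt' hS Hy ha h0 (relIndex_pos' _ _)
  have c2 := card_le_of_le_span hl
  have c3 := card_As (H := H) hS hψ Hy
  have c4 := finrank_V1 Hy
  have hW := V1_nondeg hS Hy
  have c5 : q * q ≤ Nat.card (V1 S u f) := by
    rw [card_submodule, hF, ← sq]; exact Nat.pow_le_pow_right (by omega) (by omega)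
  have hR : ∀ v ∈ V1 S u f, S.h a v = 0 → v ∈ Rs H Hy := fun v hv e => mem_Rs_of hS hψ Hy hv fun x hx => by
    obtain ⟨c, rfl⟩ := Submodule.mem_span_singleton.1 (hl x hx)
    simp [e]
  rw [hF] at c2
  have c6 : 1 ≤ Nat.card (V1 S u f) := Nat.card_pos
  have hD : (2 : F) = 0 → ∀ d ∈ Ds H Hy.sing_e, d = 0 := fun h2 => by
    by_contra! hD
    refine hn (nsp3 hq (by nlinarith) ((t3 hD).2.2 h2) ?_)
    simpa [show q - 1 + 1 = q by omega] using nsp5 (k := q - 1) c6 (by omega) c1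
  have c7 : (2 : F) ≠ 0 → Nat.card (V1 S u f) ≤ Nat.card (As ψ H Hy) * Nat.card (As ψ H Hy) := fun h2 => by
    have := iso_ineq hS Hy (lmin_symp h2) hN
    rw [← c3] at this ⊢
    exact Nat.mul_le_mul_left _ (Nat.le_of_mul_le_mul_right this Nat.card_pos)
  have hα : Nat.card (As ψ H Hy) = q := by
    by_cases h2 : (2 : F) = 0
    · by_contra hα
      refine hn (nsp4 hq c5 (t1 h2) ?_)
      simpa [show q - 2 + 1 = q - 1 by omega] using nsp5 (k := q - 2) c6 (by omega) c1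
    · exact le_antisymm c2 (Nat.mul_self_le_mul_self_iff.1 (c5.trans (c7 h2)))
  rcases hd with h6 | ⟨h4, h5⟩
  · have h2 : (2 : F) = 0 := by
      by_contra h2
      have := c7 h2
      rw [hα, card_submodule, hF, ← sq, Nat.pow_le_pow_iff_right (by omega)] at this
      omega
    obtain ⟨a', ha', A⟩ := exists_partner_mem hW ha.1 h0 trivial
    obtain ⟨h7, h8⟩ := nd_inf hW A.nondeg (Submodule.span_le.2 (Set.pair_subset ha.1 ha'))
    rw [A.finrank_span] at h8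
    obtain ⟨r, hr, r', hr', R⟩ := exists_hyp_s h7 (by omega)
    have u1 := (mem_V1.1 hr.1).1
    have u2 := (mem_V1.1 hr'.1).1
    have k : ∀ b j : F, S.eich u ((j * b) • r) (j * j * b) ∈ H := fun b j => by
      obtain ⟨⟨c, -, k⟩, -⟩ := hR (j • r') (Submodule.smul_mem _ _ hr'.1) (by simp [(S.mem_perp_pair.1 hr'.2).1])
      have := mul_mem (inv_mem k) (K_pres h2 Hy.e_ne (h a ha h0 r hr.1 (S.mem_perp_pair.1 hr.2).1 b)
        (mem_L1.1 (tv_mem_L1 hr.1 b)).2.1 (by simp [u2]) k)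
      rw [symp_transv_apply, eich_inv (ecs (by simp [u2]) c), eich_mul_s (by simp [u2]) (by simp [u1, u2])] at this
      convert this using 2
      · simp [R.h_ef, mul_comm]
      · simp [R.h_ef, R.h_fe, S.symp_h_self]; ring
    obtain ⟨w, hw, hw1⟩ := exists_ne_zero_ne_one (F := F) (by omega)
    have := hD h2 _ ⟨trivial, tv_of_two (by simp [u1]) (k 1 w) (by simpa using k w 1)⟩
    exact absurd (by linear_combination this) (mul_ne_zero hw (sub_ne_zero.2 hw1))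
  have c8 : Nat.card (V1 S u f) = q * q := by rw [card_submodule, hF, ← sq]; congr 1; omega
  have c9 := fun hD => main_D0 hS hH Hy hψ hD
  have c10 := m1_le (H := H) fun g => gm_L1 (u := u) (f := f)
  rw [symp_card_Λ, hF, hα] at c9
  rw [hα, c8] at c1
  refine ⟨h4, ?_, fun hD => le_trans (Nat.mul_le_mul_left _ (le_trans ?_ c10)) (c9 hD)⟩
  swap
  · by_contra! h
    obtain ⟨t, rfl⟩ := Nat.exists_eq_add_of_le' h5
    nlinarith
  by_cases hg : ∃ g ∈ Ks H u, g ∈ L1 S u f ∧ ∃ κ : F, g.1 a = κ • a ∧ κ * κ - 1 ≠ 0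
  · obtain ⟨g, h1, h2, κ, h3, h6⟩ := hg
    refine symp_NL hS Hy h4 h0 (fun c => hR _ (Submodule.smul_mem _ _ ha.1) (by simp [S.symp_h_self])) h1 h2 h3 h6
      (h a ha h0 a ha.1 (S.symp_h_self a)) ?_
    by_cases h2 : (2 : F) = 0
    exacts [Or.inr ⟨h2, hD h2⟩, Or.inl ⟨h2, hN⟩]
  push Not at hg
  have k1 := orb_count' (Ks H u) (L1 S u f) a (O := ((V1 S u f).toAddSubgroup : Set V) \ {0}) (B := {a, -a})
    (Set.toFinite _) (fun x hx => L1_trans_s hS Hy ha.1 hx.1 h0 hx.2) fun g hK hL => by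
      obtain ⟨κ, e⟩ := Submodule.mem_span_singleton.1 (hl _ (As_inv1 Hy hK hL ha))
      rw [isom_smul_def, ← e]
      rcases mul_self_eq_one_iff.1 (sub_eq_zero.1 (hg g hK hL κ e.symm)) with rfl | rfl <;> simp
  have k2 : _ = Nat.card (V1 S u f) := ncard_diff_zero (V1 S u f).toAddSubgroup
  have k3 := Nat.mul_le_mul_left ((Ks H u).relIndex (L1 S u f))
    ((Set.ncard_insert_le a {-a}).trans_eq (by rw [Set.ncard_singleton]))
  rw [c8] at hn
  refine absurd (nsp6 (m := (Ks H u).relIndex (L1 S u f)) h5 ?_ (by omega)) hn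
  by_cases hD' : ∀ d ∈ Ds H Hy.sing_e, d = 0
  · exact Or.inl (le_trans (by rw [mul_assoc]; gcongr) (c9 hD'))
  · exact Or.inr ⟨(t3 (by simpa using hD')).2.1 (mt hD hD'), hα ▸ t2⟩

include hS hH hF in
theorem symp_N (hq : 3 ≤ q) (hd : 6 ≤ finrank F V ∨ finrank F V = 4 ∧ 4 ≤ q) (hN : ¬ Tp H u) :
    q * q * Nat.card (V1 S u f) ≤ loc H u * (q - 1) + 1 ∨ (2 : F) = 0 ∧ OT H u ∨
    ((∀ r ∈ Rs H Hy, r = 0) ∧ L1 S u f ≤ Ks H u ∧ (∃ f', S.IsHyp u f' ∧ L1 S u f' ≤ H) ∧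
      ((∀ d ∈ Ds H Hy.sing_e, d = 0) → q * Nat.card (V1 S u f) ≤ loc H u)) ∨
    finrank F V = 4 ∧ (∃ z, z ≠ 0 ∧ Big H z u) ∧
      ((∀ d ∈ Ds H Hy.sing_e, d = 0) → q * q * (q + 1) ≤ loc H u) := by
  obtain ⟨ψ, hψ⟩ := exists_psi (F := F)
  refine or_iff_not_imp_left.2 fun hn => ?_
  by_cases hA : ∀ a ∈ As ψ H Hy, a = 0
  · exact Or.inl ⟨(symp_A0 hS Hy hψ hA).two hS Hy (by omega) hN, symp_A0 hS Hy hψ hA⟩
  obtain ⟨t1, t2, t3⟩ := symp_tor hS hH Hy hψ hF hN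
  have c4 := finrank_V1 Hy
  have c5 : q * q ≤ Nat.card (V1 S u f) := by
    rw [card_submodule, hF, ← sq]; exact Nat.pow_le_pow_right (by omega) (by omega)
  have c9 := fun hD => main_D0 hS hH Hy hψ hD
  have c10 := m1_le (H := H) fun g => gm_L1 (u := u) (f := f)
  have c11 := relIndex_pos' (Ks H u) (L1 S u f)
  rw [symp_card_Λ, hF] at c9
  by_cases h : ∀ a ∈ As ψ H Hy, a ≠ 0 → ∀ y ∈ V1 S u f, S.h a y = 0 → ∀ b, S.eich y 0 b ∈ Ks H u
  swap
  · push Not at h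
    obtain ⟨a, ha, h0, y, hy, h4, b, h5⟩ := h
    have k := fun k hk => symp_cnt' hS Hy ha h0 (k := k) (le_trans hk (k_ge hy h4 h5))
    have k2 := k 2 (CharP.char_is_prime F _).two_le
    refine absurd ?_ hn
    by_cases h2 : (2 : F) = 0
    · exact nsp1 hq (by nlinarith) (t1 h2) (by linarith)
    by_cases hD : ∀ d ∈ Ds H Hy.sing_e, d = 0
    · exact nsp1 hq (by nlinarith) ((mul_left_comm _ _ _).trans_le ((mul_assoc _ _ _).ge.trans
        ((Nat.mul_le_mul_left _ c10).trans (c9 hD)))) (by linarith)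
    have k3 := k 3 ((CharP.char_is_prime F _).two_le.lt_of_ne fun h => h2 (by
      simpa [← h] using ringChar.Nat.cast_ringChar (R := F)))
    exact nsp2 (t3 (by simpa using hD)).1 c5 t2 (by linarith)
  push Not at hA
  obtain ⟨a, ha, h0⟩ := hA
  rcases A_cases hS Hy hψ h ha h0 with hl | ⟨h1, h2, h3⟩
  · exact Or.inr (Or.inr ((symp_line hS hH Hy hψ hF hq hd hN h ha h0 hl).resolve_left hn))
  rw [h1] at c9 t3
  have hp := (V1_nondeg hS Hy).symp_commutator_eq_top (hd.elim (fun h => Or.inr (Or.inl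
    ⟨by omega, exists_ne_zero_ne_one (by omega)⟩)) fun h => Or.inr (Or.inr (H11.exists_sq_ne_one (by omega))))
  refine Or.inr (Or.inl ⟨h2, h3, ?_, fun hD =>
    (mul_comm _ _).trans_le ((Nat.le_mul_of_pos_right _ (c11.trans_le c10)).trans (c9 hD))⟩)
  by_cases h4 : (2 : F) = 0
  · by_cases hD : ∀ d ∈ Ds H Hy.sing_e, d = 0
    swap
    · exact absurd (nsp7 hq ((Nat.mul_le_mul_left _ (Nat.le_mul_of_pos_right _ c11)).trans
        ((t3 (by simpa using hD)).2.2 h4))) hn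
    by_cases hL : Lst S u f ≤ Ms H u
    swap
    · refine absurd ?_ hn
      obtain ⟨t, rfl⟩ := Nat.exists_eq_add_of_le' hq
      have := Nat.mul_le_mul_right (t + 2) ((Nat.mul_le_mul_left _ (two_le_relIndex hL)).trans (c9 hD))
      change _ ≤ _ * (t + 2) + 1
      nlinarith [Nat.zero_le (t * t * Nat.card (V1 S u f)), Nat.zero_le (t * Nat.card (V1 S u f))]
    obtain ⟨w, hw, hw1⟩ := exists_ne_zero_ne_one (F := F) (by omega)
    exact L1_le_H hS Hy h2 h3 hp (s := Hy.tor (Units.mk0 w hw)) (hL (tor_Lst hS Hy (Units.mk0 w hw)⁻¹) :)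
      hw (κ := 1) (by simpa [sub_eq_zero] using hw1.symm) (by simp) (by simp) fun x hx => by simp [Hy.tor_perp _ hx]
  · exact L1_le_H hS Hy h2 h3 hp (s := S.scal ⟨-1, by simp [mem_normOne]⟩ * Hy.tor (-1))
      (h3 (mem_L1.2 ⟨hS.symp_E_eq_top.ge trivial, by simp, by simp⟩)) one_ne_zero (κ := -1)
      (by simpa [one_add_one_eq_two] using h4) (by simp) (by simp) fun x hx => by simp [Hy.tor_perp _ hx]

end H25
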