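import Cfsg.Agent.H25.MiSp2

/-! Minimal index of symplectic groups over fields with at least three elements (`symp_main`, `psp_big`). -/

set_option autoImplicit false

namespace H25
open H11 H11.PForm H29 Module

variable {F : Type*} [Field F]

theorem psp_min {m B : ℕ} (hm : 1 ≤ m) (h : MinE (stdSymp m F) B) (K : Subgroup (stdSymp m F).Isom)
    (hK : ∀ g : (stdSymp m F).Isom, ∀ c : F, (∀ x, g.1 x = c • x) → g ∈ K)
    (hB : K.relIndex (stdSymp m F).E = B) :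
    (∀ H : Subgroup (Cfsg.PSp m F), H ≠ ⊤ → B ≤ H.index) ∧ ∃ H : Subgroup (Cfsg.PSp m F), H.index = B := by
  have hS := stdSymp_nondeg (F := F) m
  obtain ⟨e, f, Hy⟩ := hS.symp_exists_hyp (by rw [finrank_sum_fun]; omega)
  have hφ : Function.Surjective ((QuotientGroup.mk' (Subgroup.center (Matrix.symplecticGroup (Fin m) F))).comp
      ((spEquiv m F).symm.toMonoidHom.comp (stdSymp m F).E.subtype)) := fun y => by
    obtain ⟨y, rfl⟩ := QuotientGroup.mk'_surjective _ y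
    exact ⟨⟨spEquiv m F y, hS.symp_E_eq_top.ge trivial⟩, by simp⟩
  refine ⟨min_index_transfer _ _ hφ h, hB ▸ exists_index_transfer _ _ hφ _ fun g hg => ?_⟩
  obtain ⟨c, hc⟩ := (Hy.mem_center_iff_scalar hS (symp_rich _ _) le_rfl g).1 (Subgroup.mem_center_iff.2 fun k =>
    Subtype.ext ((spEquiv m F).symm.injective (by
      simpa using Subgroup.mem_center_iff.1 ((QuotientGroup.eq_one_iff _).1 hg) ((spEquiv m F).symm k))))
  exact hK _ c hc

variable {V : Type*} [AddCommGroup V] [Module F V] {S : PForm (sympP F) V}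
  {H : Subgroup S.Isom} {u f : V} [FiniteDimensional F V] (hS : S.Nondeg)

omit [FiniteDimensional F V] in
theorem Tp.line {x : V} (h : S.h u x = 0) (hx : Tp H x) {μ : F} (hz : Tp H (x + μ • u)) :
    S.eich u (μ • x) (μ * μ) ∈ H := by
  have e := Qs_eq h 1 0 μ
  simp only [zero_add, one_mul, mul_zero, zero_mul, zero_smul] at e
  rw [← H.mul_mem_cancel_right (hx 1 trivial), e]
  exact hz 1 trivial

include hS

theorem OT.ts_eq (h : OT H u) {T : Submodule F V} (hT : S.TS T) (hH : H ≤ S.stab T) {t₀ : V} (h0 : t₀ ∈ T)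
    (hut : S.h u t₀ ≠ 0) : T = F ∙ t₀ := by
  refine le_antisymm (fun t' ht' => ?_) ((Submodule.span_singleton_le_iff_mem _ _).2 h0)
  refine Submodule.mem_span_singleton.2 ⟨S.h u t' / S.h u t₀, (sub_eq_zero.1 ?_).symm⟩
  have ht : t' - (S.h u t' / S.h u t₀) • t₀ ∈ T := T.sub_mem ht' (T.smul_mem _ h0)
  have hu : S.h u (t' - (S.h u t' / S.h u t₀) • t₀) = 0 := by simp [hut]
  generalize t' - (S.h u t' / S.h u t₀) • t₀ = t at ht hu
  by_contra ht0
  obtain ⟨x, hx, h1⟩ := hS.exists_perp_of_notMem' (U := F ∙ u) (u := t) (fun h => by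
    obtain ⟨c, rfl⟩ := Submodule.mem_span_singleton.1 h
    simpa [hut, left_ne_zero_of_smul ht0] using hT.h_eq ht h0) 1
  rw [mem_perp_singleton] at hx
  obtain ⟨a, k⟩ := h x hx
  have := hT.h_eq ((hH k t).1 ht) h0
  rw [eich_s hx] at this
  simp [hu, hT.h_eq ht h0, S.symp_symm t x, h1, hut] at this

theorem symp_big (h4 : 4 ≤ finrank F V) (hn : ¬ S.E ≤ H) {z w : V} (hz : z ≠ 0) (hb : Big H z w) :
    ∃ T, S.TS T ∧ H ≤ S.stab T ∧ ∃ t ∈ T, ∃ u, ∃ Hy : S.IsHyp u t, ∀ d ∈ Ds H Hy.sing_e, d = 0 := by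
  rcases big_tri2 hS symp_Λ_ne (fun w w' => by
    obtain ⟨z, h1, h3⟩ := (Submodule.ne_bot_iff (S.perp (Submodule.span F {w, w'}))).1 (fun h => by
      have := hS.finrank_perp (Submodule.span F {w, w'})
      have := finrank_span_two_le (F := F) w w'
      rw [h, finrank_bot] at *
      omega)
    exact ⟨z, h3, trivial, S.mem_perp_pair.1 h1⟩) hz trivial hb with h | ⟨T, h5, h6, h7⟩ | ⟨w, h5, -⟩
  · exact absurd h hn
  · obtain ⟨t, ht, ht0⟩ := (Submodule.ne_bot_iff _).1 h6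
    obtain ⟨t', Ht⟩ := hS.exists_isHyp (S.symp_sing t) ht0
    have Ht' : S.IsHyp (-t') t := ⟨trivial, trivial, by simp [Ht.h_fe]⟩
    exact ⟨T, h5, h7, t, ht, _, Ht', fun d hd => tv_eq_zero_of_ts h5 h7 trivial ht (by simp [Ht.h_fe]) trivial hd.2⟩
  · exact absurd trivial h5

theorem not_all_zero (h3 : 3 ≤ finrank F V) (h0 : u ≠ 0) (h : ∀ x, S.h u x = 0 → x ∉ F ∙ u → S.eich u x 0 ∈ H) :
    S.eich u 0 1 ∈ H := by
  obtain ⟨f, Hy⟩ := hS.exists_isHyp (S.symp_sing u) h0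
  have := finrank_V1 Hy
  obtain ⟨r, hr, r', hr', R⟩ := exists_hyp_s (V1_nondeg hS Hy) (by omega)
  have h1 := (mem_V1.1 hr).1
  have h2 := (mem_V1.1 hr').1
  have n : ∀ x, S.h x r' = 1 ∨ S.h r x = 1 → x ∉ F ∙ u := fun x hx h => by
    obtain ⟨c, rfl⟩ := Submodule.mem_span_singleton.1 h
    simp [h2, S.h_swap_zero h1] at hx
  have := mul_mem (h r h1 (n _ (Or.inl R.h_ef))) (h r' h2 (n _ (Or.inr R.h_ef)))
  rw [eich_mul_s h1 h2] at this
  simpa [R.h_ef] using tv_of_two (by simp [h1, h2]) this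
    (h _ (by simp [h1, h2]) (n _ (Or.inl (by simp [R.h_ef, S.symp_h_self]))))

omit hS [FiniteDimensional F V] in
theorem Tp_of_L1 (h : L1 S u f ≤ H) {x : V} (hx : x ∈ V1 S u f) : Tp H x := fun a _ => h (tv_mem_L1 hx a)

variable [Finite F] [Finite V]

omit hS [Finite F] [FiniteDimensional F V] in
theorem ncard_sing_s (W : Submodule F V) : {x | x ∈ W ∧ x ≠ 0 ∧ S.Sing x}.ncard + 1 = Nat.card W := by
  rw [← show _ = Nat.card W from ncard_diff_zero W.toAddSubgroup]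
  congr 2
  ext x
  simp [S.symp_sing x]

omit hS [Finite F] [FiniteDimensional F V] in
theorem ncard_sing_s' : {x | x ≠ 0 ∧ S.Sing x}.ncard + 1 = Nat.card V := by
  simpa using ncard_sing_s (S := S) ⊤

theorem idx_pt_s (h0 : u ≠ 0) (hH : H ≤ S.stab (F ∙ u)) :
    Nat.card V ≤ H.relIndex S.E * (Nat.card F - 1) + 1 := by
  rw [← ncard_sing_s' (S := S)]
  exact Nat.add_le_add_right (idx_pt hS symp_Λ_ne trivial h0 hH) _

theorem card_V_eq (Hy : S.IsHyp u f) : Nat.card V = Nat.card F * Nat.card F * Nat.card (V1 S u f) := by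
  rw [card_submodule, Module.natCard_eq_pow_finrank (K := F), ← finrank_V1 Hy]; ring

theorem symp_main {q B : ℕ} (hF : Nat.card F = q) (hq : 3 ≤ q) (hd : 6 ≤ finrank F V ∨ finrank F V = 4 ∧ 4 ≤ q)
    (hB : B * (q - 1) + 1 = Nat.card V) : MinE S B := fun H hH hn => by
  by_contra! hlt
  obtain ⟨t, ht⟩ := Nat.exists_eq_add_of_le' hq
  have G : ∀ n, n ≤ H.relIndex S.E → ¬ Nat.card V ≤ n * (q - 1) + 1 := fun n h1 h2 => by
    rw [← hB] at h2
    have := Nat.le_of_mul_le_mul_right (Nat.le_of_add_le_add_right h2) (by omega)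
    omega
  have cV := fun u f (Hy : S.IsHyp u f) => hF ▸ card_V_eq hS Hy
  have N := fun u f (Hy : S.IsHyp u f) hT => (symp_N hS hH Hy hF hq hd hT).resolve_left
    (cV u f Hy ▸ G _ (loc_le H u))
  have nT : ∀ u (hu : S.Sing u), (∀ d ∈ Ds H hu, d = 0) → ¬ Tp H u := fun u hu h hT =>
    one_ne_zero (h 1 ⟨trivial, hT 1 trivial⟩)
  by_cases hb : ∃ z w, z ≠ 0 ∧ Big H z w
  · obtain ⟨z, w, h1, h2⟩ := hb
    obtain ⟨T, h3, h4, x, hx, u, Hy, hD⟩ := symp_big hS (by omega) hn h1 h2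
    have h5 : S.h u x ≠ 0 := by simp [Hy.h_ef]
    have h6 : T ≠ F ∙ x := fun h => G _ le_rfl (hF ▸ idx_pt_s hS Hy.f_ne (h ▸ h4))
    rcases N u x Hy (nT u _ hD) with h | h | ⟨h7, -, h8⟩
    · exact h6 (h.2.ts_eq hS h3 h4 hx h5)
    · exact h6 (ts_eq_pt hS symp_Λ_ne h3 h4 Hy hx h5 h.2.1)
    obtain ⟨y, hy, h9⟩ := SetLike.not_le_iff_exists.1 fun h =>
      h6 (le_antisymm h ((Submodule.span_singleton_le_iff_mem _ _).2 hx))
    obtain ⟨f, X⟩ := hS.exists_isHyp (S.symp_sing x) Hy.f_ne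
    have k7 := IsHyp.sub_mem_V1 X (h3.h_eq hx hy)
    have k8 := T.sub_mem hy (T.smul_mem ((sympP F).ε * S.h f y) hx)
    have k9 : y - ((sympP F).ε * S.h f y) • x ≠ 0 := fun h =>
      h9 (Submodule.mem_span_singleton.2 ⟨_, (sub_eq_zero.1 h).symm⟩)
    have hK : Ks H x ≤ S.stab T := sup_le (by
      intro g hg
      obtain ⟨v, -, a, hc, rfl⟩ := IsHyp.exists_X X hg
      exact mem_stab_of_le fun y hy => by
        rw [eich_apply_of_perp hc (h3.h_eq hx hy)]; exact T.sub_mem hy (T.smul_mem _ hx)) (inf_le_left.trans h4)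
    have := finrank_V1 X
    have k1 := m1_pt hS symp_Λ_ne X k7 k9 trivial (K := Ks H x) fun g hg hL =>
      mem_of_sing3 (V1_nondeg hS X) (by omega) k7 (L1_V1 hL k7) k9 trivial trivial (h3.h_eq k8 ((hK hg _).1 k8))
    obtain ⟨ψ, hψ⟩ := exists_psi (F := F)
    have k2 := (m1_le fun g => gm_L1).trans ((Nat.le_mul_of_pos_left _ Nat.card_pos).trans (main_T hS hH X hψ))
    have k3 := ncard_sing_s (S := S) (V1 S x f)
    have k4 := loc_add2 (H := H) hS (symp_rich _ _) Hy.sing_e Hy.e_ne trivial Hy.f_ne fun g hg c hc e => by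
      simpa [e, hc, h5] using h3.h_eq ((h4 hg _).1 hx) hx
    have k5 := cV _ _ X
    rw [card_submodule, show finrank F (V1 S x f) = 2 by omega, hF] at k3 k5
    refine G _ k4 ?_
    have k6 := Nat.mul_le_mul_right (q - 1) (h8 hD)
    have k10 := Nat.mul_le_mul_right (q - 1) k2
    rw [hF] at k1
    subst ht
    simp only [Nat.add_one_sub_one] at *
    nlinarith
  push Not at hb
  obtain ⟨w, hw, hw1⟩ := exists_ne_zero_ne_one (F := F) (by omega)
  have N' : ∀ u f (Hy : S.IsHyp u f), ¬ Tp H u → (2 : F) = 0 ∧ OT H u ∨ _ := fun u f Hy hT =>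
    (N u f Hy hT).imp_right fun h => h.resolve_right fun ⟨_, ⟨z, h1, h2⟩, _⟩ => hb z u h1 h2
  have N1 := fun v v' (Hv : S.IsHyp v v') hT => (N' v v' Hv hT).resolve_left fun ⟨h2, hO⟩ => by
    have k : ∀ u, u ≠ 0 → S.h v u = 0 → OT H u := fun u h0 h => by
      obtain ⟨f, Hy⟩ := hS.exists_isHyp (S.symp_sing u) h0
      refine ((N' u f Hy fun h' => hT (O_ZK hS hw hw1 hO h h' h0)).resolve_right ?_).2
      rintro ⟨-, -, ⟨f', Hy', h3⟩, -⟩
      have := finrank_V1 Hy'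
      obtain ⟨r, hr, r', hr', R⟩ := exists_hyp_s (V1_nondeg hS Hy') (by omega)
      by_cases h4 : S.h v r = 0
      · exact hT (O_ZK hS hw hw1 hO h4 (Tp_of_L1 h3 hr) R.e_ne)
      · exact hT (O_ZK hS hw hw1 hO (v := r' - (S.h v r' / S.h v r) • r) (by simp [h4])
          (Tp_of_L1 h3 (sub_mem hr' (Submodule.smul_mem _ _ hr))) fun h => by
            simpa [R.h_ef, R.h_ee] using congrArg (S.h r) h)
    have z : ∀ x, S.h v x = 0 → x ∉ F ∙ v → ∀ a, S.eich v x a ∈ H → a = 0 := fun x h h1 a =>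
      have h0 : x ≠ 0 := by rintro rfl; simp at h1
      O_zero hS h2 hw hw1 (k x h0 h) hO (S.h_swap_zero h) (fun h' => by
        obtain ⟨c, rfl⟩ := Submodule.mem_span_singleton.1 h'
        exact h1 (Submodule.mem_span_singleton.2 ⟨c⁻¹, by simp [smul_smul, left_ne_zero_of_smul Hv.e_ne]⟩)) h1 hT
    have z' : ∀ x, S.h v x = 0 → x ∉ F ∙ v → S.eich v x 0 ∈ H := fun x h h1 => by
      obtain ⟨a, k⟩ := hO x h
      exact z x h h1 a k ▸ k
    obtain ⟨x, hx, h3⟩ := SetLike.not_le_iff_exists.1 fun h : S.perp (F ∙ v) ≤ F ∙ v => by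
      have := Submodule.finrank_mono h
      have := hS.finrank_perp (F ∙ v)
      rw [finrank_span_singleton Hv.e_ne] at *
      omega
    rw [mem_perp_singleton] at hx
    have := mul_mem (z' x hx h3) (not_all_zero hS (by omega) Hv.e_ne z')
    rw [eich_mul_s hx (by simp)] at this
    simpa using z x hx h3 1 (by simpa using this)
  by_cases hT : ∀ x, x ≠ 0 → Tp H x
  · exact hn (hS.symp_T_eq_top ▸ T_le_iff.2 (fun x a _ h3 ha => hT x h3 a ha) |>.trans' le_top)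
  push Not at hT
  obtain ⟨u, h0, hT⟩ := hT
  obtain ⟨f₀, Hy₀⟩ := hS.exists_isHyp (S.symp_sing u) h0
  obtain ⟨-, -, ⟨f, Hy, h1⟩, -⟩ := N1 u f₀ Hy₀ hT
  obtain ⟨h2, -, -, h3⟩ := N1 u f Hy hT
  have := finrank_V1 Hy
  obtain ⟨x, hx, x', hx', X⟩ := exists_hyp_s (V1_nondeg hS Hy) (by omega)
  have hux := (mem_V1.1 hx).1
  have Tx := Tp_of_L1 h1 hx
  by_cases hD : ∀ d ∈ Ds H Hy.sing_e, d = 0
  swap
  · push Not at hD
    obtain ⟨d, hd, hd0⟩ := hD
    by_cases hz : Tp H (x + (1 : F) • u)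
    · exact X.e_ne (by simpa using h2 _ (mem_Rs' Hy (Submodule.smul_mem _ _ hx) (ecs (by simp [hux]) _)
        (Tx.line hux hz)))
    obtain ⟨z', Z⟩ := hS.exists_isHyp (S.symp_sing (x + (1 : F) • u)) fun h => by
      simpa [X.h_ef, (mem_V1.1 hx').1] using congrArg (S.h · x') h
    have e := Qs_eq hux (-d) d 1
    rw [show d + -d * 1 = 0 by ring, show 2 * d * 1 + -d * 1 * 1 = d by ring, zero_smul] at e
    obtain ⟨c, h⟩ := Submodule.mem_span_singleton.1 (mem_of_Rs_bot Z (N1 _ _ Z hz).1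
      (ecs (by simp [Hy.h_ee, S.h_swap_zero hux]) _) (e ▸ mul_mem hd.2 (Tx _ trivial)))
    have k1 := congrArg (S.h · x') h
    have k2 := congrArg (S.h · f) h
    simp only [map_smul, map_add, LinearMap.smul_apply, LinearMap.add_apply, X.h_ef, (mem_V1.1 hx').1, Hy.h_ef,
      S.h_swap_zero (mem_V1.1 hx).2, smul_eq_mul] at k1 k2
    exact hd0 (by linear_combination k1 - k2)
  obtain ⟨-, h4 | ⟨h4, h5⟩⟩ := symp_T hS hH X (fun a => hb x a X.e_ne) Tx
  · refine G _ (loc_add hS (symp_rich _ _) trivial h0 trivial X.e_ne Tx hT) ?_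
    have k1 := Nat.eq_of_mul_eq_mul_left (by positivity) ((cV _ _ X).symm.trans (cV _ _ Hy))
    have k2 := Nat.mul_le_mul_right (q - 1) (Nat.add_le_add (h3 hD) (k1 ▸ h4))
    have k3 : 1 ≤ Nat.card (V1 S u f) := Nat.card_pos
    rw [cV _ _ Hy]
    subst ht
    simp only [Nat.add_one_sub_one] at *
    nlinarith [Nat.mul_le_mul_left t k3]
  have := finrank_V1 X
  obtain ⟨y, Y, h6⟩ := L1_le_H hS X h4 (fun g hg => h5 (gm_L1 hg)) ((V1_nondeg hS X).symp_commutator_eq_top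
    (hd.elim (fun h => Or.inr (Or.inl ⟨by omega, w, hw, hw1⟩))
      fun h => Or.inr (Or.inr (H11.exists_sq_ne_one (by omega))))) (s := X.tor (Units.mk0 w hw))
    (h5 (tor_Lst hS X (Units.mk0 w hw)⁻¹) :) hw (κ := 1) (by simpa [sub_eq_zero] using hw1.symm) (by simp) (by simp)
    fun x hx => by simp [X.tor_perp _ hx]
  have k1 := Tp_of_L1 h6 (IsHyp.sub_mem_V1 Y (S.h_swap_zero hux))
  generalize (sympP F).ε * S.h y u = μ at k1
  obtain ⟨g, hg, e⟩ := L1_trans_s hS Hy hx (Submodule.smul_mem _ w hx) X.e_ne (smul_ne_zero hw X.e_ne)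
  have k2 := k1.map (h1 hg)
  rw [map_sub, map_smul, e, (mem_L1.1 hg).2.1, show u - μ • w • x = u - μ • x + (μ * (1 - w)) • x by module] at k2
  have k3 : S.h x (u - μ • x) = 0 := by simp [S.h_swap_zero hux, X.h_ee]
  obtain ⟨c, h⟩ := Submodule.mem_span_singleton.1 (mem_of_Rs_bot X h4 (ecs (by simp [k3]) _) (k1.line k3 k2))
  have k4 : μ = 0 := by
    simpa [Hy.h_ef, S.h_swap_zero (mem_V1.1 hx).2, sub_eq_zero, hw1.symm] using congrArg (S.h · f) h.symm
  exact hT (by simpa [k4] using k1)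

omit hS in
theorem psp_big [Fintype F] {q : ℕ} (hF : Fintype.card F = q) (m : ℕ) (hm : 2 ≤ m) (hq : 3 ≤ q)
    (hexc : ¬ (m = 2 ∧ q = 3)) :
    (∀ H : Subgroup (Cfsg.PSp m F), H ≠ ⊤ → (q ^ (2 * m) - 1) / (q - 1) ≤ H.index) ∧
      ∃ H : Subgroup (Cfsg.PSp m F), H.index = (q ^ (2 * m) - 1) / (q - 1) := by
  rw [← Nat.card_eq_fintype_card] at hF
  have hS := stdSymp_nondeg (F := F) m
  have hd := finrank_sum_fun (F := F) m
  have hB : (q ^ (2 * m) - 1) / (q - 1) * (q - 1) + 1 = Nat.card (Fin m ⊕ Fin m → F) := by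
    rw [Nat.div_mul_cancel (by simpa using Nat.sub_dvd_pow_sub_pow q 1 (2 * m)),
      Module.natCard_eq_pow_finrank (K := F), hd, hF, Nat.sub_add_cancel (Nat.one_le_pow _ _ (by omega))]
  obtain ⟨e, f, Hy⟩ := hS.symp_exists_hyp (by omega)
  refine psp_min (by omega) (symp_main hS hF hq (by omega) hB) ((stdSymp m F).stab (F ∙ e))
    (fun g c h => mem_stab_of_smul (h e)) ?_
  have h1 := index_pt hS (symp_rich _ _) Hy.sing_e Hy.e_ne
  have h2 := ncard_sing_s' (S := stdSymp m F)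
  rw [← h1, ← hB, hF] at h2
  exact Nat.eq_of_mul_eq_mul_right (by omega) (Nat.add_right_cancel h2)

end H25
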