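import Cfsg.Agent.H25.MiSp3

/-! Minimal index of symplectic groups over the field with two elements (`symp_two`, `psp_two`); quadratic
forms polarising to the symplectic form (`Pol`). -/

set_option autoImplicit false

namespace H25
open H11 H11.PForm H29 Module

variable {F : Type*} [Field F] [Finite F] (hF : Nat.card F = 2) {V : Type*} [AddCommGroup V] [Module F V]
  {S : PForm (sympP F) V} {H : Subgroup S.Isom} {u f : V}

/-- `a` polarises to the symplectic form -/
def Pol (S : PForm (sympP F) V) (a : V → F) : Prop := ∀ x y, a (x + y) = a x + a y + S.h x y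

include hF

theorem f2_cases (c : F) : c = 0 ∨ c = 1 := by
  obtain ⟨y, -, h⟩ := (Nat.card_eq_two_iff' (0 : F)).1 hF
  exact or_iff_not_imp_left.2 fun hc => (h c hc).trans (h 1 one_ne_zero).symm

theorem f2_two : (2 : F) = 0 := two_eq_zero_iff_card.2 (by rw [hF])

theorem Pol.smul {a : V → F} (h : Pol S a) (c : F) (x : V) : a (c • x) = c * a x := by
  rcases f2_cases hF c with rfl | rfl
  · simpa using h 0 0
  · simp

theorem Pol.tv {a : V → F} (h : Pol S a) (y : V) (b : F) (x : V) :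
    a ((S.eich y 0 b).1 x) = a x + S.h ((b * (a y + 1)) • y) x := by
  rw [symp_transv_apply, h, h.smul hF]
  simp only [map_smul, LinearMap.smul_apply, smul_eq_mul, S.symp_symm y x]
  rcases f2_cases hF (S.h y x) with h | h <;> rw [h]
  · simp
  · linear_combination -b * f2_two hF

variable [FiniteDimensional F V] [Finite V] (hS : S.Nondeg)
include hS

theorem Pol.cnt {a : V → F} (h : Pol S a) {j : ℕ} (hd : finrank F V = 2 * (j + 1)) : ∃ η : ℤ, (η = 1 ∨ η = -1) ∧
    ({x | a x = 0}.ncard : ℤ) = 2 ^ j * (2 ^ (j + 1) + η) ∧ ({x | a x = 1}.ncard : ℤ) = 2 ^ j * (2 ^ (j + 1) - η) := by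
  have h2 := f2_two hF
  let S' : PForm (orthP F) V :=
    { h := S.h
      q := a
      symm := fun x y => by simpa using by linear_combination S.symp_symm x y - S.h x y * h2
      q_add := fun x y => by simp [h x y]
      q_smul := fun c x => by rw [h.smul hF]; rcases f2_cases hF c with rfl | rfl <;> simp
      h_self := fun x => by simpa [S.symp_h_self] using by linear_combination -a x * h2 }
  obtain ⟨η, T⟩ : ∃ η, Ty S' (j + 1) η := by
    by_cases h : S'.HasTS (j + 1)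
    exacts [⟨1, hS, hd, Or.inl ⟨rfl, h⟩⟩, ⟨-1, hS, hd, Or.inr ⟨rfl, h⟩⟩]
  have h1 := T.cnt
  rw [ncard_nz, ← ncard_level, hF] at h1
  refine ⟨η, T.2.2.imp And.left And.left, ?_, h1.2 1 one_ne_zero⟩
  rcases T.2.2 with ⟨rfl, -⟩ | ⟨rfl, -⟩ <;> exact (sub_eq_iff_eq_add.1 h1.1).trans (by push_cast; ring)

theorem Pol.le_idx {a : V → F} (h : Pol S a) {M : Subgroup S.Isom} (hM : ∀ g ∈ M, ∀ x, a (g.1 x) = a x) :
    {x | a x = 0}.ncard ≤ M.relIndex S.E := by
  refine le_relIndex_of_inj (ι := {x | a x = 0}) (fun w => S.eich w 0 1) (fun _ => eich_mem_E _ _ _ _)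
    fun w w' e => Subtype.ext (sub_eq_zero.1 (hS _ fun x => ?_))
  have := hM _ e ((S.eich w' 0 (-1)).1 x)
  rw [transv_inv (S.symp_sing _) trivial, isom_mul_apply, ← isom_mul_apply _ _ x,
    tv_mul (S.symp_sing _) trivial trivial, add_neg_cancel, eich_zero, h.tv hF, h.tv hF, w.2, w'.2] at this
  simpa [sub_eq_zero] using this

theorem Pol.idx_le {a : V → F} (h : Pol S a) {M : Subgroup S.Isom} (hM : ∀ g, (∀ x, a (g.1 x) = a x) → g ∈ M) :
    M.relIndex S.E ≤ {x | a x = 0}.ncard := by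
  have h2 := f2_two hF
  let J : Subgroup S.Isom :=
    { carrier := {g | ∃ w, a w = 0 ∧ ∀ x, a (g.1 x) = a x + S.h w x}
      one_mem' := ⟨0, by simpa using h 0 0, by simp⟩
      mul_mem' := by
        rintro g g' ⟨w, h1, e⟩ ⟨w', h1', e'⟩
        refine ⟨g'⁻¹.1 w + w', ?_, fun x => ?_⟩
        · have := e' (g'⁻¹.1 w)
          rw [isom_apply_inv_self, h1] at this
          rw [h, h1', S.symp_symm]
          linear_combination -this - S.h w' (g'⁻¹.1 w) * h2
        · rw [isom_mul_apply, e, e', ← isom_h g'⁻¹ w, isom_inv_apply_self, map_add, LinearMap.add_apply]; ring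
      inv_mem' := by
        rintro g ⟨w, h1, e⟩
        refine ⟨g.1 w, by simp [e, h1, S.symp_h_self], fun x => ?_⟩
        have := e (g⁻¹.1 x)
        rw [← isom_h g, isom_apply_inv_self] at this
        linear_combination -this - S.h (g.1 w) x * h2 }
  have hJ : ∀ g, g ∈ J := fun g => (T_le_iff.2 fun y b _ _ _ => ⟨_, by
    rw [h.smul hF]; rcases f2_cases hF (a y) with h | h <;> simp [h, one_add_one_eq_two, h2], h.tv hF y b⟩ :
      S.T ≤ J) (hS.symp_T_eq_top.ge trivial)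
  choose w h1 h3 using hJ
  refine Nat.card_le_card_of_injective (β := {x | a x = 0}) (fun c : S.E ⧸ M.subgroupOf S.E =>
    ⟨w (c.out : S.E)⁻¹, h1 _⟩) fun c c' e => ?_
  rw [← c.out_eq, ← c'.out_eq]
  refine QuotientGroup.eq.2 (hM _ fun x => ?_)
  rw [Subtype.mk.injEq] at e
  change a (((c.out : S.E) : S.Isom)⁻¹.1 (((c'.out : S.E) : S.Isom).1 x)) = _
  rw [h3, e, ← h3, isom_inv_apply_self]

variable (hH : H ≤ S.E) (Hy : S.IsHyp u f)

omit [FiniteDimensional F V] [Finite V] hS in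
theorem f2_D0 (hN : ¬ Tp H u) (d : F) (h : S.eich u 0 d ∈ H) : d = 0 :=
  (f2_cases hF d).resolve_right fun e => hN fun a _ => by
    rcases f2_cases hF a with rfl | rfl
    · simp [eich_zero]
    · exact e ▸ h

include hH Hy in
theorem f2_N (hN : ¬ Tp H u) : OT H u ∨ 2 * Nat.card (V1 S u f) ≤ loc H u := by
  obtain ⟨ψ, hψ⟩ := exists_psi (F := F)
  refine or_iff_not_imp_left.2 fun h => ?_
  obtain ⟨a, ha, h0⟩ : ∃ a ∈ As ψ H Hy, a ≠ 0 := by
    by_contra! h'
    exact h (symp_A0 hS Hy hψ h')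
  have h1 := symp_cnt' hS Hy ha h0 (relIndex_pos' _ _)
  have h2 := (symp_tor hS hH Hy hψ hF hN).1 (f2_two hF)
  have := relIndex_pos' (Ks H u) (L1 S u f)
  nlinarith

include hH Hy in
theorem f2_O (hN : ¬ Tp H u) (hO : OT H u) {j : ℕ} (hd : finrank F V = 2 * (j + 2)) :
    2 ^ (j + 1) * (2 ^ (j + 1) - 1) ≤ (loc H u : ℤ) := by
  obtain ⟨ψ, hψ⟩ := exists_psi (F := F)
  have hW := V1_nondeg hS Hy
  choose a ha using fun x : V1 S u f => hO x (mem_V1.1 x.2).1
  have un : ∀ x : V1 S u f, ∀ b, S.eich u x b ∈ H → a x = b := fun x b k =>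
    sub_eq_zero.1 (f2_D0 hF hN _ (tv_of_two (mem_V1.1 x.2).1 (ha x) k))
  have hP : Pol (S.restrict (V1 S u f)) a := fun x y => un _ _ (by
    simpa [eich_mul_s (mem_V1.1 x.2).1 (mem_V1.1 y.2).1] using mul_mem (ha x) (ha y))
  have := finrank_V1 Hy
  obtain ⟨η, h1, h2, -⟩ := hP.cnt hF hW (j := j) (by omega)
  have h3 := (hP.le_idx hF hW (M := (Ks H u).comap (ext1 hW)) fun g hg x => un _ _ (by
    simpa [ext1_left] using K_pres (f2_two hF) Hy.e_ne hg (ext1_right _ _ (S.le_perp_perp _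
      (Submodule.subset_span (by simp)))) (mem_V1.1 x.2).1 (ha x))).trans (comap_le_m1 hS Hy le_rfl)
  have h4 := le_trans (Nat.mul_le_mul_left _ (Nat.le_mul_of_pos_left _ Nat.card_pos))
    ((symp_tor hS hH Hy hψ hF hN).1 (f2_two hF))
  have : (0 : ℤ) < 2 ^ j := by positivity
  zify at h3 h4
  rcases h1 with rfl | rfl <;> nlinarith [pow_succ (2 : ℤ) j]

theorem symp_two {j B : ℕ} (hd : finrank F V = 2 * (j + 3)) (hB : (B : ℤ) = 2 ^ (j + 2) * (2 ^ (j + 3) - 1)) :
    MinE S B := fun H hH hn => by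
  by_contra! hlt
  have cV : ∀ u f, S.IsHyp u f → (Nat.card (V1 S u f) : ℤ) = 2 ^ (j + 2) * 2 ^ (j + 2) := fun u f Hy => by
    have := finrank_V1 Hy
    rw [card_submodule, hF, show finrank F (V1 S u f) = j + 2 + (j + 2) by omega, pow_add]; simp
  have h0 : (0 : ℤ) < 2 ^ (j + 2) := by positivity
  have h1 := pow_succ (2 : ℤ) (j + 2)
  have N := fun u f (Hy : S.IsHyp u f) hT => (f2_N hF hS hH Hy hT).resolve_right fun h => by
    have := loc_le H u
    have := cV u f Hy
    zify at *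
    nlinarith
  by_cases hb : ∃ z w, z ≠ 0 ∧ Big H z w
  · obtain ⟨z, w, h2, h3⟩ := hb
    obtain ⟨T, h3, h4, x, hx, u, Hy, hD⟩ := symp_big hS (by omega) hn h2 h3
    have := idx_pt_s hS Hy.f_ne ((N u x Hy fun hT => one_ne_zero (hD 1 ⟨trivial, hT 1 trivial⟩)).ts_eq hS h3 h4 hx
      (by simp [Hy.h_ef]) ▸ h4)
    rw [card_V_eq hS Hy, hF] at this
    have := cV u x Hy
    zify at *
    nlinarith
  push Not at hb
  by_cases hT : ∀ x, x ≠ 0 → Tp H x
  · exact hn (hS.symp_T_eq_top ▸ T_le_iff.2 (fun x a _ h3 ha => hT x h3 a ha) |>.trans' le_top)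
  push Not at hT
  obtain ⟨u, hu, hT⟩ := hT
  obtain ⟨f, Hy⟩ := hS.exists_isHyp (S.symp_sing u) hu
  have O : ∀ x, x ≠ 0 → OT H x := fun x hx => by
    obtain ⟨x', X⟩ := hS.exists_isHyp (S.symp_sing x) hx
    refine N x x' X fun h => ?_
    have := loc_add hS (symp_rich _ _) trivial hu trivial hx h hT
    have := (symp_T hS hH X (fun a => hb x a hx) h).1
    have := f2_O hF hS hH Hy hT (N u f Hy hT) (j := j + 1) hd
    have := cV x x' X
    zify at *
    nlinarith
  refine one_ne_zero (f2_D0 hF hT 1 (not_all_zero hS (by omega) hu fun w h2 h3 => ?_))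
  obtain ⟨f', h4, h5⟩ := hS.exists_perp_of_notMem' (U := F ∙ w) (u := u) (fun h => by
    obtain ⟨c, rfl⟩ := Submodule.mem_span_singleton.1 h
    exact h3 (Submodule.mem_span_singleton.2 ⟨c⁻¹, by simp [smul_smul, left_ne_zero_of_smul hu]⟩)) 1
  rw [mem_perp_singleton] at h4
  have Hy' : S.IsHyp u f' := ⟨trivial, trivial, h5⟩
  have hW := V1_nondeg hS Hy'
  have hw : w ∈ V1 S u f' := mem_V1.2 ⟨h2, S.h_swap_zero h4⟩
  have hw0 : w ≠ 0 := by rintro rfl; simp at h3
  obtain ⟨w', hw', W⟩ := exists_partner_mem hW hw hw0 trivial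
  obtain ⟨h7, h8⟩ := nd_inf hW W.nondeg (Submodule.span_le.2 (Set.pair_subset hw hw'))
  rw [W.finrank_span] at h8
  have := finrank_V1 Hy'
  obtain ⟨x, hx, v, hv, X⟩ := exists_hyp_s h7 (by omega)
  have k1 := (S.mem_perp_pair.1 hx.2).1
  have k2 := (mem_V1.1 hv.1).1
  obtain ⟨b, k3⟩ := O w hw0 x k1
  obtain ⟨a, k4⟩ := O u hu v k2
  have := mul_mem (inv_mem k4) (mul_mem (mul_mem k3 k4) (inv_mem k3))
  rw [conj_eich, eich_s k1, eich_s k1, eich_inv (ecs k2 a)] at this
  simp only [S.h_swap_zero h2, S.h_swap_zero (mem_V1.1 hx.1).1, (S.mem_perp_pair.1 hv.2).1, X.h_ef, zero_smul,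
    mul_zero, add_zero, one_smul] at this
  rw [eich_mul_s (by simp [k2]) (by simp [k2, h2])] at this
  simpa [S.symp_h_self, S.h_swap_zero (S.mem_perp_pair.1 hv.2).1] using this

omit hS hF [Finite F] in
theorem psp_two [Fintype F] (hF : Fintype.card F = 2) (m : ℕ) (hm : 3 ≤ m) :
    (∀ H : Subgroup (Cfsg.PSp m F), H ≠ ⊤ → 2 ^ (m - 1) * (2 ^ m - 1) ≤ H.index) ∧
      ∃ H : Subgroup (Cfsg.PSp m F), H.index = 2 ^ (m - 1) * (2 ^ m - 1) := by
  rw [← Nat.card_eq_fintype_card] at hF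
  obtain ⟨j, rfl⟩ := Nat.exists_eq_add_of_le' hm
  have hS := stdSymp_nondeg (F := F) (j + 3)
  have hd := finrank_sum_fun (F := F) (j + 3)
  have h2 := f2_two hF
  have hB : ((2 ^ (j + 3 - 1) * (2 ^ (j + 3) - 1) : ℕ) : ℤ) = 2 ^ (j + 2) * (2 ^ (j + 3) - 1) := by
    rw [Nat.cast_mul, Nat.cast_sub Nat.one_le_two_pow]; simp
  obtain ⟨a, ha, h1⟩ : ∃ a, Pol (stdSymp (j + 3) F) a ∧
      ({x | a x = 0}.ncard : ℤ) = 2 ^ (j + 2) * (2 ^ (j + 3) - 1) := by
    obtain ⟨a, ha⟩ : ∃ a, Pol (stdSymp (j + 3) F) a := ⟨fun x => ∑ i, x (Sum.inl i) * x (Sum.inr i), fun x y => by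
      simp only [stdSymp_h, sympForm_eq, ← Finset.sum_add_distrib, Pi.add_apply]
      exact Finset.sum_congr rfl fun i _ => by linear_combination x (Sum.inl i) * y (Sum.inr i) * h2⟩
    obtain ⟨η, rfl | rfl, h3, h4⟩ := ha.cnt hF hS (j := j + 2) hd
    swap
    · exact ⟨_, ha, h3⟩
    obtain ⟨w, hw⟩ : {x | a x = 1}.Nonempty := Set.nonempty_of_ncard_ne_zero fun h => by
      have : (1 : ℤ) < 2 ^ (j + 2 + 1) := one_lt_pow₀ one_lt_two (by omega)
      rw [h] at h4
      exact (mul_pos (by positivity) (sub_pos.2 this)).ne h4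
    refine ⟨fun x => a (x + w) + 1, fun x y => ?_, ?_⟩
    · simp only [ha _ w, ha x y, show a w = 1 from hw, map_add, LinearMap.add_apply]
      linear_combination -h2
    · rw [← h4, ← Set.ncard_image_of_injective _ (add_left_injective w)]
      congr 2
      ext x
      simp only [Set.image_add_right, Set.preimage_ofPred_eq, Set.mem_ofPred_eq, neg_add_cancel_right]
      exact ⟨fun h => by linear_combination h - h2, fun h => by linear_combination h + h2⟩
  let K : Subgroup (stdSymp (j + 3) F).Isom :=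
    { carrier := {g | ∀ x, a (g.1 x) = a x}
      one_mem' := fun _ => rfl
      mul_mem' := fun h h' x => (h _).trans (h' x)
      inv_mem' := fun {g} h x => by rw [← h, isom_apply_inv_self] }
  refine psp_min (by omega) (symp_two hF hS hd hB) K (fun g c h x => ?_) ?_
  · rcases f2_cases hF c with rfl | rfl
    · rw [show x = 0 by simpa using h x, map_zero]
    · simp [h]
  · rw [← Int.natCast_inj, hB, ← h1, Int.natCast_inj]
    exact le_antisymm (ha.idx_le hF hS fun _ h => h) (ha.le_idx hF hS fun _ h => h)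

end H25
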