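import Cfsg.Agent.H25.MiU9

/-! Minimal index of `PSU₃(q)` (`unit3_min`, `psu_three`). -/

set_option autoImplicit false

namespace H25
open H11 H11.PForm H29 Module

theorem two_primes {r r' : ℕ} (hr : r.Prime) (hr' : r'.Prime) (h : r ≠ r') (h7 : 7 ≤ r) (h7' : 7 ≤ r') :
    77 ≤ r * r' := by
  have k : ∀ r : ℕ, r.Prime → 7 ≤ r → r = 7 ∨ 11 ≤ r := fun r hr h => by
    by_contra! h'
    obtain ⟨h1, h2⟩ := h'
    interval_cases r <;> first | omega | exact absurd hr (by decide)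
  rcases k r hr h7 with rfl | h1 <;> rcases k r' hr' h7' with rfl | h2 <;> first | omega | nlinarith

/-- the numerical alternatives given by `singer_main` -/
def SM (Φ z h α : ℕ) : Prop :=
  (∃ r r', r.Prime ∧ r'.Prime ∧ r ≠ r' ∧ 7 ≤ r ∧ 7 ≤ r' ∧ r ∣ Φ ∧ r' ∣ Φ ∧ 7 * α ≤ 3 * h) ∨
    ∃ i j e a, (i = 1 ∨ i = 3) ∧ (e = 1 ∨ e = 3) ∧ j * i = Φ ∧ h = z * j * (j * a + e) ∧ (e = 1 → 7 * α ≤ h)

theorem SM.two {Φ z h α : ℕ} (H : SM Φ z h α) (h0 : 0 < Φ) : (77 ≤ Φ ∧ (3 ∣ Φ → 231 ≤ Φ) ∧ 7 * α ≤ 3 * h) ∨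
    ∃ i j e a, (i = 1 ∨ i = 3) ∧ (e = 1 ∨ e = 3) ∧ j * i = Φ ∧ h = z * j * (j * a + e) ∧ (e = 1 → 7 * α ≤ h) :=
  H.imp_left fun ⟨r, r', hr, hr', n, h7, h7', d, d', k⟩ => by
    have := two_primes hr hr' n h7 h7'
    have h1 := ((Nat.coprime_primes hr hr').2 n).mul_dvd_of_dvd_of_dvd d d'
    refine ⟨this.trans (Nat.le_of_dvd h0 h1), fun h3 => le_trans (by omega) (Nat.le_of_dvd h0
      ((Nat.Coprime.mul_right ?_ ?_).mul_dvd_of_dvd_of_dvd h3 h1)), k⟩ <;>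
      exact (Nat.coprime_primes Nat.prime_three ‹_›).2 (by omega)

theorem num3_a {q Φ z s t α : ℕ} (hΦ : Φ + q = q ^ 2 + 1) (hq : q = 4 ∨ q = 8) (hz : z ∣ 3) (h1 : q ^ 2 - 1 ≤ t * s)
    (h2 : t ∣ q + 1) (h3 : s ≤ 8) (h4 : s ∣ q ^ 3) (H : SM Φ z ((q ^ 3 + 1) * (t * s)) α) : False := by
  have h5 := Nat.le_of_dvd (by omega) h2
  rcases H.two (by rcases hq with rfl | rfl <;> omega) with h | ⟨i, j, e, a, hi, he, k1, k2, -⟩
  · rcases hq with rfl | rfl <;> omega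
  have : (q = 4 ∧ t = 5 ∧ (s = 4 ∨ s = 8) ∧ j = 13) ∨ q = 8 ∧ t = 9 ∧ s = 8 ∧ (j = 57 ∨ j = 19) := by
    rcases hq with rfl | rfl
    · obtain rfl : t = 5 := by interval_cases t <;> omega
      exact Or.inl ⟨rfl, rfl, by interval_cases s <;> omega, by rcases hi with rfl | rfl <;> omega⟩
    · obtain rfl : t = 9 := by interval_cases t <;> omega
      exact Or.inr ⟨rfl, rfl, by interval_cases s <;> omega, by rcases hi with rfl | rfl <;> omega⟩
  rcases (Nat.dvd_prime Nat.prime_three).1 hz with rfl | rfl <;>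
    rcases this with ⟨rfl, rfl, rfl | rfl, rfl⟩ | ⟨rfl, rfl, rfl, rfl | rfl⟩ <;> omega

theorem num3_b {q Φ z t α : ℕ} (hΦ : Φ + q = q ^ 2 + 1) (hq : 3 ≤ q) (hz : z ∣ 3) (ht : t + 1 = q ^ 2)
    (h : (q ^ 3 + 1) * t * t ≤ 2 * t * α + (q ^ 3 + 1) * t * (z + (q + 1))) (H : SM Φ z ((q ^ 3 + 1) * t) α) :
    False := by
  have hz' := Nat.le_of_dvd three_pos hz
  have h0 : 0 < Φ := by nlinarith
  rcases H.two h0 with ⟨h1, -, h2⟩ | ⟨i, j, e, a, hi, he, k1, k2, -⟩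
  · have h3 : t ≤ 7 * (z + (q + 1)) := Nat.le_of_mul_le_mul_left (c := (q ^ 3 + 1) * t)
      (by nlinarith [Nat.mul_le_mul_left t h2]) (Nat.mul_pos (by omega) (by nlinarith))
    have : q ≤ 9 := by nlinarith
    nlinarith
  have j0 : 0 < j := Nat.pos_of_mul_pos_right (k1 ▸ h0)
  have e1 : q ^ 3 + 1 = j * (i * (q + 1)) := by nlinarith
  rw [e1, mul_assoc, mul_comm z, mul_assoc j, Nat.mul_right_inj j0.ne'] at k2
  have e2 : z * e + 3 * i + j * (z * a) = j * (i * i * (q + 2)) := by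
    zify at *
    linear_combination -k2 + i * (q + 1) * ht - i * (q + 2) * (k1 + hΦ)
  have h4 := Nat.le_of_dvd (by omega) ((Nat.dvd_add_left (dvd_mul_right j _)).1 (e2 ▸ dvd_mul_right j _))
  have : q ≤ 7 := by rcases hi with rfl | rfl <;> rcases he with rfl | rfl <;> nlinarith
  clear h H e2 h4
  have : j = Φ / i := by rcases hi with rfl | rfl <;> omega
  have : Φ = q ^ 2 + 1 - q := by omega
  have : t = q ^ 2 - 1 := by omega
  subst j t Φ
  rcases (Nat.dvd_prime Nat.prime_three).1 hz with rfl | rfl <;> rcases hi with rfl | rfl <;>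
    rcases he with rfl | rfl <;> interval_cases q <;> omega

theorem num3_c {q Φ t k α : ℕ} (hΦ : Φ + q = q ^ 2 + 1) (hq : 11 ≤ q) (h3 : 3 ∣ q + 1) (hk : k = 1 ∨ k = 2)
    (ht : t * k + 3 = 3 * q) (h : (q ^ 3 + 1) * (t * q) * (t * q) ≤ 2 * (t * q) * α + (q ^ 3 + 1) * (t * q) * (3 + q * 3))
    (H : SM Φ 3 ((q ^ 3 + 1) * (t * q)) α) : False := by
  have h0 : 0 < Φ := by nlinarith
  have t0 : 3 * q ≤ 2 * t + 3 := by rcases hk with rfl | rfl <;> omega
  have p0 : 0 < (q ^ 3 + 1) * (t * q) := Nat.mul_pos (by omega) (Nat.mul_pos (by omega) (by omega))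
  rcases H.two h0 with ⟨-, h1, h2⟩ | ⟨i, j, e, a, hi, he, k1, k2, k3⟩
  · have h4 : t * q ≤ 7 * (3 + q * 3) := Nat.le_of_mul_le_mul_left (by nlinarith [Nat.mul_le_mul_left (t * q) h2]) p0
    have : q ≤ 15 := by nlinarith
    have := h1 (by interval_cases q <;> omega)
    nlinarith
  have j0 : 0 < j := Nat.pos_of_mul_pos_right (k1 ▸ h0)
  have e1 : q ^ 3 + 1 = j * (i * (q + 1)) := by nlinarith
  rw [e1, mul_assoc, mul_comm 3, mul_assoc j, Nat.mul_right_inj j0.ne'] at k2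
  have e2 : k * e + i * (q + 1) + j * (k * a) = j * (i * i * (q + 1)) := by
    refine Nat.eq_of_mul_eq_mul_left three_pos ?_
    zify at *
    linear_combination -k * k2 + i * (q + 1) * q * ht - 3 * i * (q + 1) * (k1 + hΦ)
  have h4 := (Nat.dvd_add_left (dvd_mul_right j _)).1 (e2 ▸ dvd_mul_right j _)
  have h5 := Nat.le_of_dvd (by rcases hi with rfl | rfl <;> omega) h4
  have : q ≤ 12 := by rcases hi with rfl | rfl <;> rcases he with rfl | rfl <;> rcases hk with rfl | rfl <;> nlinarith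
  obtain rfl : q = 11 := by omega
  obtain ⟨rfl, rfl⟩ : i = 3 ∧ j = 37 := by rcases hi with rfl | rfl <;> rcases he with rfl | rfl <;> omega
  rcases he with rfl | rfl <;> rcases hk with rfl | rfl <;> try omega
  obtain rfl : t = 30 := by omega
  omega

variable {F : Type*} [Field F] {σ : F →+* F} {V : Type*} [AddCommGroup V] [Module F V]
  {hσ : ∀ a, σ (σ a) = a} (hne : σ ≠ RingHom.id F) {S : PForm (unitP σ hσ) V} {H : Subgroup S.Isom}
  [FiniteDimensional F V] [Finite F] (hS : S.Nondeg) (h3 : finrank F V = 3) {q : ℕ}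
  (hF : Nat.card F = q ^ 2)

include hne hS h3 hF in
theorem unit3_min (hσq : ∀ x, σ x = x ^ q) (hq : 3 ≤ q) (h5 : q ≠ 5) (hH : H ≤ S.E)
    (hZ : ∀ c, S.scal c ∈ S.E → S.scal c ∈ H) (hn : ¬ S.E ≤ H) : q ^ 3 + 1 ≤ H.relIndex S.E := by
  classical
  haveI := finite_V F V
  by_contra! hlt
  have h0 : 0 < q ^ 2 - 1 := Nat.sub_pos_of_lt (by nlinarith)
  have L : ∀ x, S.Sing x → x ≠ 0 → loc H x * (Nat.card (Tu H x) * Nat.card (H ⊓ S.X x : Subgroup _)) =
      (q ^ 2 - 1) * q ^ 3 := fun x hx x0 => by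
    rw [← card_stab hne hS h3 hx x0 hH, ← (card_P3 hne hS h3 hF hx x0).2.1, inf_comm _ S.E,
      ← relIndex_mul_card' H (S.E ⊓ _), ← inf_assoc, inf_eq_left.2 hH, inf_comm H]; rfl
  have tl : ∀ x, Nat.card (Tu H x) ∣ q ^ 2 - 1 := fun x => by
    simpa [Nat.card_units, hF] using (Tu H x).card_subgroup_dvd_card
  have L1 : ∀ x, S.Sing x → x ≠ 0 → H ⊓ S.X x = ⊥ → q ^ 3 ≤ loc H x := fun x hx x0 h => by
    have := L x hx x0
    rw [h, Subgroup.card_bot, mul_one] at this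
    exact Nat.le_of_mul_le_mul_left (this.ge.trans (mul_comm (q ^ 2 - 1) _ ▸
      Nat.mul_le_mul_left _ (Nat.le_of_dvd h0 (tl x)))) h0
  obtain ⟨u, f, Hy⟩ := hS.unit_exists_hyp hne (by omega)
  have hu := Hy.sing_e
  have hT : ∀ x, S.Sing x → x ≠ 0 → x ∈ Ob H u := fun x hx x0 => by_contra fun h => by
    have h1 := loc_add2 (H := H) hS (unit_rich hne _ _) hu Hy.e_ne hx x0 fun g hg c hc e =>
      h ⟨g⁻¹, inv_mem hg, c, hc, by rw [← map_smul, ← e, isom_inv_apply_self]⟩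
    have h2 : 0 < loc H u := relIndex_pos' _ _
    have h4 : 0 < loc H x := relIndex_pos' _ _
    obtain ⟨⟨g, g1⟩, g2⟩ := Subgroup.ne_bot_iff_exists_ne_one.1 fun h => by have := L1 x hx x0 h; omega
    obtain ⟨⟨g', g3⟩, g4⟩ := Subgroup.ne_bot_iff_exists_ne_one.1 fun h => by have := L1 u hu Hy.e_ne h; omega
    exact h (pt_trans hne hS h3 hF hx x0 hu Hy.e_ne g1.1 g1.2 (by simpa using g2) g3.1 g3.2 (by simpa using g4))
  have c1 := idx_Ob H Hy.e_ne
  rw [show Ob H u = {x | x ≠ 0 ∧ S.Sing x} from Set.ext fun x => ⟨by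
    rintro ⟨g, -, c, hc, rfl⟩
    exact ⟨by simp [hc, Hy.e_ne], ((isom_sing _ _).2 hu).smul c⟩, fun h => hT x h.2 h.1⟩,
    ncard_sing3 hne hS h3 hF, hF, Nat.mul_left_inj h0.ne'] at c1
  have c2 := relIndex_mul_card' (S.stab (F ∙ u)) H
  have c3 := card_stab hne hS h3 hu Hy.e_ne hH
  have c4 : q ^ 2 - 1 ≤ Nat.card (Tu H u) * Nat.card (H ⊓ S.X u : Subgroup _) := Nat.le_of_mul_le_mul_right
    ((L u hu Hy.e_ne).ge.trans (mul_comm (q ^ 3) _ ▸ Nat.mul_le_mul_right _ (by have := loc_le H u; omega)))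
    (by positivity)
  have c5 := card_P_le hne hS h3 hF hH Hy
  have c6 : Nat.card (H ⊓ S.X u : Subgroup _) ∣ q ^ 3 :=
    (card_P3 hne hS h3 hF hu Hy.e_ne).2.2 ▸ Subgroup.card_dvd_of_le inf_le_right
  have c7 := card_Z_dvd hne hS h3 hH Hy
  have hN : ¬ Tp H u := fun h => hn (hS.unit_T_eq_E hne hF (by omega) ▸ T_le_iff.2 fun x a h1 h2 ha => by
    obtain ⟨g, hg, c, -, rfl⟩ := hT x h1 h2
    exact (h.map hg).smul ((isom_sing _ _).2 hu) c a ha)
  obtain ⟨Φ, hΦ⟩ : ∃ Φ, Φ + q = q ^ 2 + 1 := ⟨q ^ 2 + 1 - q, Nat.sub_add_cancel (by nlinarith)⟩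
  rw [c1, c3] at c2
  have M : SM _ _ _ _ := singer_main hne hS h3 hF hΦ hH hq (c2 ▸ Dvd.dvd.mul_right ⟨q + 1, by nlinarith⟩ _) rfl c7
    (A := {g | g ∈ H ∧ ¬ NE g}) fun _ h => h
  have C := fun θ => fix_count hne hS h3 hH Hy (θ := θ)
  rw [c3, ← c2] at C
  rw [← c2] at M
  obtain ⟨p, k, hp, hpq⟩ := exists_q_pow hF
  have ev : (2 : F) = 0 ↔ q % 2 = 0 := by
    rw [two_eq_zero_iff_card, hF, Nat.pow_mod]
    rcases Nat.mod_two_eq_zero_or_one q with h | h <;> simp [h]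
  by_cases hD : ∀ d ∈ Ds H hu, d = 0
  swap
  · push Not at hD
    obtain ⟨d, hd, d0⟩ := hD
    obtain ⟨h2, h4⟩ := D_small hne hS h3 hF hH Hy hT hN hd d0
    have k1 : Nat.card (Ds H hu) ≤ 2 := (Set.ncard_le_ncard (s := (Ds H hu : Set F)) (t := {0, d}) h4).trans
      ((Set.ncard_insert_le _ _).trans (by simp))
    have k2 := c5.trans (Nat.mul_le_mul (R_four hS h3 Hy h2 h4) k1)
    have k3 : Nat.card (Tu H u) ∣ q + 1 := card_normOne_unit hσ hne hF ▸ Subgroup.card_dvd_of_le (by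
      rintro c ⟨g, hg, e⟩
      have := mul_mem (mul_mem hg hd.2) (inv_mem hg)
      rw [conj_eich, e, map_zero, tv_smul' hu hd.1] at this
      exact mul_right_cancel₀ d0 (by
        linear_combination (h4 _ ⟨mul_mem_Λ hd.1 _, this⟩).resolve_left (by simp [d0])))
    refine num3_a hΦ ?_ c7 c4 k3 k2 c6 M
    have k4 := c4.trans (Nat.mul_le_mul (Nat.le_of_dvd (by omega) k3) k2)
    have k5 : q ≤ 9 := by have : 1 ≤ q ^ 2 := by omega
                          zify [this] at k4; nlinarith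
    have := ev.1 h2
    have : q ≠ 6 := fun h => by
      have k := fun r (hr : r.Prime) (h' : r ∣ 6) => (Nat.prime_dvd_prime_iff_eq hr hp).1
        (hr.dvd_of_dvd_pow (hpq ▸ h ▸ h'))
      exact absurd ((k 2 Nat.prime_two (by decide)).trans (k 3 Nat.prime_three (by decide)).symm) (by decide)
    omega
  rw [(AddSubgroup.eq_bot_iff_forall _).2 hD, AddSubgroup.card_bot, mul_one] at c5
  by_cases hR : ∀ r ∈ Rs H Hy, r = 0
  · rw [(AddSubgroup.eq_bot_iff_forall _).2 hR, AddSubgroup.card_bot] at c5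
    replace c5 := le_antisymm c5 Nat.card_pos
    have := Nat.le_of_dvd h0 (tl u)
    rw [c5, mul_one] at M C c4
    refine num3_b hΦ hq c7 (by omega) (by
      simpa using C (q + 1) ((Set.ncard_le_ncard (t := Set.range fun c : normOne σ => (c.1 : F)) fun c hc =>
        ⟨⟨Units.mk0 c (right_ne_zero_of_mul_eq_one hc.2.1), hc.2.1⟩, rfl⟩).trans (by
          rw [Set.ncard_range_of_injective fun a b h => Subtype.ext (Units.ext h), card_normOne_unit hσ hne hF]))) M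
  push Not at hR
  obtain ⟨r, hr, r0⟩ := hR
  obtain ⟨ψ, hψ⟩ := exists_psi (F := F)
  have k1 := c5.trans (unit_alpha hne hF hS Hy hψ hN (e := 1) h3).1
  have k2 := mt ev.2 (two_ne_of_D0 Hy hD hr.1 (V1_ns hS h3 Hy hr.2 r0))
  have k3 := fun g hg c => D0_line hne hS h3 hH Hy hD hr r0 (g := g) hg (c := c)
  obtain ⟨j, k4⟩ := card_dvd_of_pow (T := Tu H u) (n := 3 * (q - 1)) fun c ⟨g, hg, e⟩ =>
    mul_right_cancel₀ (pow_ne_zero 3 c.ne_zero) (by
      rw [← pow_add, one_mul, ← k3 g hg c e, hσq, ← pow_mul]; congr 1; omega)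
  obtain ⟨n, rfl⟩ := Nat.exists_eq_add_of_le' (show 1 ≤ q by omega)
  rw [show (n + 1) ^ 2 - 1 = n * (n + 2) from Nat.sub_eq_of_eq_add (by ring)] at c4 tl
  rw [Nat.add_sub_cancel] at k4
  rw [pow_one] at k1
  have j0 : 0 < j := Nat.pos_of_ne_zero (by rintro rfl; omega)
  have k5 : Nat.card (H ⊓ S.X u : Subgroup _) = n + 1 := by
    obtain ⟨a, -, ha⟩ := (Nat.dvd_prime_pow hp).1 (pow_mul p (k + 1) 3 ▸ hpq ▸ c6)
    obtain ⟨c, hc⟩ : Nat.card (H ⊓ S.X u : Subgroup _) ∣ n + 1 := by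
      rw [ha, hpq] at k1 ⊢
      exact pow_dvd_pow _ ((Nat.pow_le_pow_iff_right hp.one_lt).1 k1)
    have : c % 2 = 1 := by
      by_contra h
      rw [hc, Nat.mul_mod, show c % 2 = 0 by omega] at k2
      simp at k2
    obtain rfl | h : c = 1 ∨ 3 ≤ c := by omega
    · omega
    nlinarith [Nat.mul_le_mul_left (Nat.card (H ⊓ S.X u : Subgroup _)) h, Nat.mul_le_mul_right
      (Nat.card (H ⊓ S.X u : Subgroup _)) (k4 ▸ Nat.le_mul_of_pos_right (Nat.card (Tu H u)) j0)]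
  rw [k5] at c4 M C
  have k6 : j = 1 ∨ j = 2 := by
    by_contra h
    have : Nat.card (Tu H u) ≤ n := by nlinarith [Nat.mul_le_mul_left (Nat.card (Tu H u)) (show 3 ≤ j by omega)]
    nlinarith
  have k7 : 3 ∣ n + 1 + 1 := by
    have := Nat.mul_dvd_mul_right (tl u) j
    rw [← k4, mul_comm 3, mul_assoc, Nat.mul_dvd_mul_iff_left (by omega)] at this
    rcases k6 with rfl | rfl <;> omega
  have k8 : Nat.card (S.scal.range ⊓ H : Subgroup _) = 3 := Nat.dvd_antisymm c7 (by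
    haveI := Fact.mk Nat.prime_three
    haveI := Hy.nontrivial
    obtain ⟨c, hc⟩ := exists_prime_orderOf_dvd_card' (G := normOne σ) 3 (card_normOne_unit hσ hne hF ▸ k7)
    rw [← hc, ← orderOf_injective _ S.scal_injective]
    exact Subgroup.orderOf_dvd_natCard _ ⟨⟨c, rfl⟩, hZ c ((scal_mem_E3 hne hS h3 Hy).2 (by
      simpa [hc] using congr((($(pow_orderOf_eq_one c) : Fˣ) : F))))⟩)
  rw [k8] at M C
  refine num3_c hΦ (by omega) k7 k6 (by omega) (C 3 ((Set.ncard_le_ncard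
    (t := (Polynomial.nthRoots 3 (-1 : F)).toFinset) ?_).trans ?_)) M
  · rintro c ⟨⟨g, hg, e⟩, h1, h2⟩
    simp only [Finset.mem_coe, Multiset.mem_toFinset, Polynomial.mem_nthRoots three_pos]
    refine mul_left_cancel₀ (sub_ne_zero.2 h2) ?_
    linear_combination -c ^ 3 * k3 g hg c e + ((σ c * c) ^ 2 + σ c * c + 1) * h1
  · rw [Set.ncard_coe_finset]
    exact (Multiset.toFinset_card_le _).trans (Polynomial.card_nthRoots _ _)

omit [Finite F] in
theorem psu_three [Fintype F] (q : ℕ) (hF : Fintype.card F = q ^ 2) (hq : 3 ≤ q) (h5 : q ≠ 5) :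
    (∀ H : Subgroup (Cfsg.PSU 3 F q), H ≠ ⊤ → q ^ 3 + 1 ≤ H.index) ∧
      ∃ H : Subgroup (Cfsg.PSU 3 F q), H.index = q ^ 3 + 1 := by
  obtain ⟨σ, hσq, hσ, hne⟩ := exists_frob hF
  rw [← Nat.card_eq_fintype_card] at hF
  have hS := stdUnit_nondeg hσ hne (Fin 3)
  obtain ⟨e, f, Hy⟩ := hS.unit_exists_hyp hne (by simp)
  have hE := Hy.unit_SIsom_eq_E hne hS
  let φ := (centerQuotCongr (suEquiv hσ hne hσq 3)).symm.toMonoidHom.comp
      (QuotientGroup.mk' (Subgroup.center (stdUnit hσ hne (Fin 3)).SIsom))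
  have hφ : Function.Surjective φ :=
    (centerQuotCongr _).symm.surjective.comp (QuotientGroup.mk'_surjective _)
  have hc := Hy.mem_center_iff_scalar hS (unit_rich hne _ _) hE.ge
  refine ⟨fun K hK => ?_, ?_⟩
  · have h1 := unit3_min hne hS (by simp) hF hσq hq h5 (H := (K.comap φ).map (stdUnit hσ hne (Fin 3)).SIsom.subtype)
      ((Subgroup.map_subtype_le _).trans hE.le) (fun c h => ⟨⟨_, hE.ge h⟩, by
        simp [φ, (QuotientGroup.eq_one_iff _).2 ((hc ⟨_, hE.ge h⟩).2 ⟨c.1, fun _ => rfl⟩)], rfl⟩) fun h' => hK (by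
      rw [eq_top_iff]
      intro y _
      obtain ⟨x, rfl⟩ := hφ y
      obtain ⟨z, hz, e⟩ := h' (hE.le x.2)
      rwa [← Subtype.ext e])
    rwa [← hE, Subgroup.relIndex, Subgroup.subgroupOf, Subgroup.comap_map_eq_self_of_injective
      (Subgroup.subtype_injective _), Subgroup.index_comap_of_surjective _ hφ] at h1
  rw [← (card_P3 hne hS (by simp) hF Hy.sing_e Hy.e_ne).1, ← hE]
  refine exists_index_transfer _ _ hφ _ fun g hg => ?_
  obtain ⟨c, hc⟩ := (hc g).1 (by simpa [φ] using hg)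
  exact mem_stab_of_smul (hc e)

end H25
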