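import Cfsg.Agent.H25.MiU8

/-! Local analysis of point-transitive subgroups of `SU₃(q)` (`fix_count`, `D_small`, `R_four`, `D0_line`). -/

set_option autoImplicit false

namespace H25
open H11 H11.PForm H29 Module

variable {F : Type*} [Field F] {σ : F →+* F} {V : Type*} [AddCommGroup V] [Module F V]
  {hσ : ∀ a, σ (σ a) = a} (hne : σ ≠ RingHom.id F) {S : PForm (unitP σ hσ) V} {H : Subgroup S.Isom} {u f : V}
  [FiniteDimensional F V] [Finite F] [Finite V] (hS : S.Nondeg) (h3 : finrank F V = 3) {q : ℕ}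
  (hF : Nat.card F = q ^ 2) (hH : H ≤ S.E) (Hy : S.IsHyp u f)

include hne hS h3 Hy

omit [Finite V] in
theorem scal_mem_E3 {c : normOne σ} : S.scal c ∈ S.E ↔ (c.1 : F) ^ 3 = 1 := by
  rw [← Hy.unit_SIsom_eq_E hne hS, SIsom, MonoidHom.mem_ker, detHom_scal, h3, Units.ext_iff]; rfl

include hH in
theorem fix_count {θ : ℕ} (hθ : {c : F | (∃ g ∈ H, g.1 u = c • u) ∧ σ c * c = 1 ∧ c ^ 3 ≠ 1}.ncard ≤ θ) :
    Nat.card H * Nat.card (S.stab (F ∙ u) ⊓ H : Subgroup _) ≤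
      2 * Nat.card (S.stab (F ∙ u) ⊓ H : Subgroup _) * {g | g ∈ H ∧ ¬ NE g}.ncard +
        Nat.card H * (Nat.card (S.scal.range ⊓ H : Subgroup _) + Nat.card (H ⊓ S.X u : Subgroup _) * θ) := by
  have h0 := Hy.e_ne
  set Γ := {g : S.Isom | g ∈ S.stab (F ∙ u) ⊓ H ∧ ∀ v y, S.Sing v → S.Sing y → g.1 v ∈ F ∙ v → g.1 y ∈ F ∙ y →
    v ∉ F ∙ u → y ∉ F ∙ u → y ∈ F ∙ v}
  have h1 := conj_count H Γ (β := 2 * Nat.card (S.stab (F ∙ u) ⊓ H : Subgroup _)) fun a ha => by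
    have k : ∀ k : S.Isom, k⁻¹ * a * k ∈ Γ → a.1 (k.1 u) ∈ F ∙ k.1 u := fun k hk => by
      obtain ⟨c, -, e⟩ := exists_of_mem_stab h0 hk.1.1
      exact Submodule.mem_span_singleton.2 ⟨c, by simpa using congrArg k.1 e.symm⟩
    have st : ∀ k : S.Isom, k.1 u ∈ F ∙ u → k ∈ S.stab (F ∙ u) := fun k hk =>
      (Submodule.mem_span_singleton.1 hk).elim fun _ e => mem_stab_of_smul e.symm
    obtain ⟨k₁, h1, h2⟩ : ∃ k₁ ∈ H, ∀ k ∈ H, k⁻¹ * a * k ∈ Γ → k.1 u ∉ F ∙ u → k₁⁻¹ * k ∈ S.stab (F ∙ u) := by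
      by_cases h : ∃ k ∈ H, k⁻¹ * a * k ∈ Γ ∧ k.1 u ∉ F ∙ u
      · obtain ⟨k₁, h1, h2, h4⟩ := h
        refine ⟨k₁, h1, fun k' _ h5 h6 => ?_⟩
        obtain ⟨c, e⟩ := Submodule.mem_span_singleton.1 (ha.2 _ _ ((isom_sing _ _).2 Hy.sing_e)
          ((isom_sing _ _).2 Hy.sing_e) (k _ h2) (k _ h5) h4 h6)
        exact mem_stab_of_smul (c := c) (by rw [isom_mul_apply, ← e, map_smul, isom_inv_apply_self])
      · exact ⟨1, one_mem _, fun k h1 h2 h4 => absurd ⟨k, h1, h2, h4⟩ h⟩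
    refine (Set.ncard_le_ncard (t := ((S.stab (F ∙ u) ⊓ H : Subgroup _) : Set S.Isom) ∪
      (k₁ * ·) '' (S.stab (F ∙ u) ⊓ H : Subgroup _)) fun k hk => ?_).trans ((Set.ncard_union_le _ _).trans ?_)
    · by_cases h : k.1 u ∈ F ∙ u
      exacts [Or.inl ⟨st k h, hk.1⟩, Or.inr ⟨k₁⁻¹ * k, ⟨h2 k hk.1 hk.2 h, H.mul_mem (H.inv_mem h1) hk.1⟩, by simp⟩]
    · rw [Set.ncard_image_of_injective _ (mul_right_injective k₁), two_mul]; rfl
  have h2 : {w | ∃ k ∈ H, ∃ a ∈ Γ, w = k * a * k⁻¹}.ncard ≤ {g | g ∈ H ∧ ¬ NE g}.ncard := Set.ncard_le_ncard (by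
    rintro _ ⟨k, hk, a, ha, rfl⟩
    obtain ⟨c, -, e⟩ := exists_of_mem_stab h0 ha.1.1
    exact ⟨mul_mem (mul_mem hk ha.1.2) (inv_mem hk), fun h => h (k.1 u) (by simpa) c (by simp [e])⟩)
  have h4 := ncard_le_mul_of_fibers (fun g : S.Isom => S.h f (g.1 u))
    {g | g ∈ H ∧ ∃ c, g.1 u = c • u ∧ σ c * c = 1 ∧ c ^ 3 ≠ 1} {c : F | (∃ g ∈ H, g.1 u = c • u) ∧ σ c * c = 1 ∧ c ^ 3 ≠ 1}
    (fun g ⟨h1, c, h2, h4⟩ => ⟨⟨g, h1, by simp [h2, Hy.h_fe]⟩, by simpa [h2, Hy.h_fe] using h4⟩)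
    (Nat.card (H ⊓ S.X u : Subgroup _)) (by
      rintro c ⟨⟨g, hg, e⟩, -⟩
      refine Set.ncard_le_ncard_of_injOn (t := (H ⊓ S.X u : Subgroup _)) (g⁻¹ * ·) ?_ (mul_right_injective _).injOn
      rintro k ⟨⟨h1, d, h2, -⟩, h4⟩
      obtain rfl : d = c := by simpa [h2, Hy.h_fe] using h4
      exact ⟨H.mul_mem (H.inv_mem hg) h1, fix_X3 hne hS h3 Hy.sing_e h0 (hH (mul_mem (inv_mem hg) h1)) (by
        rw [isom_mul_apply, h2, ← e, isom_inv_apply_self])⟩)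
  have h5 : Nat.card (S.stab (F ∙ u) ⊓ H : Subgroup _) ≤ _ := (Set.ncard_le_ncard
    (s := (S.stab (F ∙ u) ⊓ H : Subgroup _)) (t := Γ ∪ ((S.scal.range ⊓ H : Subgroup _) ∪
      {g | g ∈ H ∧ ∃ c, g.1 u = c • u ∧ σ c * c = 1 ∧ c ^ 3 ≠ 1})) fun g hg => by
      refine or_iff_not_imp_right.2 fun hn => ⟨hg, fun v y hv hy e1 e2 n1 n2 => by_contra fun n3 => ?_⟩
      obtain ⟨c, hc, e⟩ := exists_of_mem_stab h0 hg.1
      obtain ⟨l, e1⟩ := Submodule.mem_span_singleton.1 e1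
      obtain ⟨m, e2⟩ := Submodule.mem_span_singleton.1 e2
      have k1 := isom_h g u v
      have k2 := isom_h g u y
      have k3 := isom_h g v y
      have a1 := mt (sing_perp3 hS h3 h0 Hy.sing_e hv) n1
      have a2 := mt (sing_perp3 hS h3 h0 Hy.sing_e hy) n2
      have a3 := mt (sing_perp3 hS h3 (by rintro rfl; simp at n1) hv hy) n3
      simp only [e, ← e1, ← e2, map_smulₛₗ, LinearMap.smul_apply, smul_eq_mul, RingHom.id_apply, ← mul_assoc,
        mul_eq_right₀ a1, mul_eq_right₀ a2, mul_eq_right₀ a3] at k1 k2 k3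
      have k4 := congrArg σ k1
      rw [map_mul, hσ, map_one] at k4
      have k5 : σ c * c = 1 := by linear_combination k2 - σ c * c * k3 + m * σ c * k4
      have k6 : c ^ 3 = 1 := by_contra fun h => hn (Or.inr ⟨hg.2, c, e, k5, h⟩)
      let ζ := S.scal ⟨Units.mk0 c hc, k5⟩
      refine n1 (X_fix hS h3 Hy.sing_e h0 (fix_X3 hne hS h3 Hy.sing_e h0 (mul_mem (inv_mem
        ((scal_mem_E3 hne hS h3 Hy).2 k6)) (hH hg.2)) (g := ζ⁻¹ * g) ?_) (fun h => hn (Or.inl ⟨⟨_,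
          inv_mul_eq_one.1 h⟩, hg.2⟩)) hv (c := c⁻¹ * l) ?_)
      · rw [isom_mul_apply, e]; exact isom_inv_apply_self ζ u
      · rw [isom_mul_apply, ← e1, ← map_inv, scal_apply, smul_smul]; simp).trans
    ((Set.ncard_union_le _ _).trans (Nat.add_le_add_left ((Set.ncard_union_le _ _).trans
      (Nat.add_le_add_left (h4.trans (Nat.mul_le_mul_left _ hθ)) _)) _))
  refine (Nat.mul_le_mul_left _ h5).trans ?_
  rw [mul_add]
  exact Nat.add_le_add_right (h1.trans (Nat.mul_le_mul_left _ h2)) _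

include hF hH in
theorem not_mult (hN : ¬ Tp H u) {l : F} (hl : l ≠ 1)
    (h : ∀ w, S.h u w = 0 → S.h w w ≠ 0 → ∃ g ∈ H, g.1 w = w ∧ g.1 u = l • u) : False := by
  obtain ⟨ψ, hψ⟩ := exists_psi (F := F)
  obtain ⟨h1, -, h2⟩ := unit_alpha hne hF hS Hy hψ hN (e := 1) h3
  have hd := finrank_V1 Hy
  obtain ⟨w, hw, hn⟩ := unit_exists_norm_mem hne (V1_nondeg hS Hy) (by omega) (map_one σ)
  have u1 := (mem_V1.1 hw).1
  have : Rs H Hy = (V1 S u f).toAddSubgroup := le_antisymm inf_le_right fun r hr => by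
    obtain ⟨g, k1, k2, k3⟩ := h w u1 (by simp [hn])
    obtain ⟨g', k4, k5, k6⟩ := h (w + (S.h r w / (l - 1)) • u) (by simp [u1, Hy.h_ee])
      (by simp [u1, Hy.h_ee, hn, S.h_swap_zero u1])
    have l0 : l ≠ 0 := by rintro rfl; exact Hy.e_ne (by simpa using k3)
    obtain ⟨v, hv, a, hc, e⟩ := IsHyp.exists_X Hy (fix_X3 hne hS h3 Hy.sing_e Hy.e_ne (hH (mul_mem k4 (inv_mem k1)))
      (smul_right_injective V l0 (by
        beta_reduce; rw [← map_smul, isom_mul_apply, ← k6, k6, ← k3, isom_inv_apply_self, k6, k3])))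
    have e1 := congr($(mul_inv_eq_iff_eq_mul.1 e).1 w)
    rw [map_add, map_smul, k6, ← eq_sub_iff_add_eq] at k5
    rw [isom_mul_apply, k2, eich_apply_of_perp hc u1, k5] at e1
    have e2 := congrArg (S.h f) e1
    simp only [map_add, map_sub, map_smul, (mem_V1.1 hw).2, Hy.h_fe, smul_eq_mul, unitP_ε] at e2
    have e3 : S.h (r - v) w = 0 := by
      rw [map_sub, LinearMap.sub_apply]
      linear_combination -e2 - div_mul_cancel₀ (S.h r w) (sub_ne_zero.2 hl)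
    obtain ⟨c, e4⟩ := mem_span_of_one h3 hd (sub_mem hr hv) hw (by rintro rfl; simp at hn)
    rw [← e4] at e3
    obtain rfl : r = v := by simpa [show c = 0 by simpa [hn] using e3, sub_eq_zero] using e4.symm
    exact mem_Rs' Hy hv hc (e ▸ mul_mem k4 (inv_mem k1))
  rw [this] at h1
  have := two_le_of_card_sq hF
  exact absurd (h2.ge.trans h1) (by nlinarith)

omit hne hS h3 [FiniteDimensional F V] [Finite F] [Finite V] in
theorem D_trans {x : V} (hx : x ∈ Ob H u) {d : F} (hd : d ∈ Ds H Hy.sing_e) (h0 : d ≠ 0) :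
    ∃ b, b ≠ 0 ∧ b ∈ (unitP σ hσ).Λ ∧ S.eich x 0 b ∈ H := by
  obtain ⟨g, hg, c, hc, rfl⟩ := hx
  refine ⟨c⁻¹ * d * σ c⁻¹, by simp [hc, h0], mul_mem_Λ hd.1 _, ?_⟩
  rw [← tv_smul' (((isom_sing _ _).2 Hy.sing_e).smul c) hd.1, inv_smul_smul₀ hc]
  simpa [conj_eich] using mul_mem (mul_mem hg hd.2) (inv_mem hg)

omit hne h3 Hy [FiniteDimensional F V] [Finite F] [Finite V] in
theorem tv_ne_one {x : V} (hx : S.Sing x) (h0 : x ≠ 0) {b : F} (hb : b ∈ (unitP σ hσ).Λ) (b0 : b ≠ 0) :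
    S.eich x 0 b ≠ 1 := fun h => by
  obtain ⟨y, hy⟩ := hS.exists_h_eq_one h0
  simpa [tv_apply hx hb, hy, b0, h0] using congr($(h).1 y)

include hF hH in
theorem D_small (hT : ∀ x, S.Sing x → x ≠ 0 → x ∈ Ob H u) (hN : ¬ Tp H u) {d : F} (hd : d ∈ Ds H Hy.sing_e)
    (h0 : d ≠ 0) : (2 : F) = 0 ∧ ∀ d' ∈ Ds H Hy.sing_e, d' = 0 ∨ d' = d := by
  have hu := Hy.sing_e
  have fx : ∀ w x b, S.h w x = 0 → S.eich x 0 b ∈ H → S.eich x 0 b ∈ MulAction.stabilizer S.Isom w ⊓ H :=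
    fun w x b h k => ⟨eich_apply_of_perp_perp (S.h_swap_zero h) (by simp), k⟩
  by_cases h2 : (2 : F) = 0
  swap
  · refine (not_mult hne hS h3 hF hH Hy hN (l := -1) (fun h => h2 (by linear_combination -h)) fun w h1 hn => ?_).elim
    have w0 : w ≠ 0 := by rintro rfl; simp at hn
    have h4 := hS.finrank_perp (F ∙ w)
    rw [finrank_span_singleton w0] at h4
    have h5 := ncard_sU hne hF (hS.restrict_perp (nondeg_singleton hn)) (n := 1) (by omega)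
    have h6 := idx_Ob (MulAction.stabilizer S.Isom w ⊓ H) Hy.e_ne
    rw [show Ob _ u = {x | x ∈ S.perp (F ∙ w) ∧ x ≠ 0 ∧ S.h x x = 0} from Set.ext fun x => ⟨?_, fun hx => ?_⟩, h5,
      sU, if_neg (by simp), pow_one, hF, mul_comm] at h6
    rotate_left
    · rintro ⟨g, hg, c, hc, rfl⟩
      refine ⟨S.mem_perp_singleton.2 ?_, by simp [hc, Hy.e_ne], by simp [Hy.h_ee]⟩
      rw [map_smul, ← show g.1 w = w from hg.1, isom_h, S.h_swap_zero h1, smul_zero]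
    · have hs := (S.unit_sing x).2 hx.2.2
      obtain ⟨b, b0, hb, k⟩ := D_trans Hy (hT x hs hx.2.1) hd h0
      exact pt_trans hne hS h3 hF hs hx.2.1 hu Hy.e_ne (fx w x b (S.mem_perp_singleton.1 hx.1) k) (eich_mem_X _ _ _)
        (tv_ne_one hS hs hx.2.1 hb b0) (fx w u d (S.h_swap_zero h1) hd.2) (eich_mem_X _ _ _)
        (tv_ne_one hS hu Hy.e_ne hd.1 h0)
    have hq2 := two_le_of_card_sq hF
    have h7 : q % 2 = 1 := by
      have := mt two_eq_zero_iff_card.2 h2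
      rw [hF, Nat.pow_mod] at this
      by_contra h
      simp [show q % 2 = 0 by omega] at this
    obtain ⟨g, hg⟩ := exists_prime_orderOf_dvd_card' (G := (MulAction.stabilizer S.Isom w ⊓ H : Subgroup _)) 2
      (((show 2 ∣ q + 1 by omega).trans (Nat.eq_of_mul_eq_mul_left (Nat.sub_pos_of_lt (by nlinarith)) h6).symm.dvd).trans
        (Subgroup.relIndex_dvd_card _ _))
    rw [← Subgroup.orderOf_coe] at hg
    obtain ⟨g, g1, g2⟩ := g
    replace g1 : g.1 w = w := g1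
    change orderOf g = 2 at hg
    have g3 : ∀ x, g.1 (g.1 x) = x := fun x => by rw [← isom_mul_apply, ← sq, ← hg, pow_orderOf_eq_one]; rfl
    refine ⟨g, g2, g1, by_contra fun h => ?_⟩
    have y0 : u + g.1 u ≠ 0 := fun h' => h (by rw [neg_one_smul, eq_neg_iff_add_eq_zero, add_comm, h'])
    have y1 : g.1 (u + g.1 u) = u + g.1 u := by rw [map_add, g3, add_comm]
    have y2 : S.h w (u + g.1 u) = 0 := by
      rw [map_add, S.h_swap_zero h1, ← g1, isom_h, S.h_swap_zero h1, add_zero]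
    generalize u + g.1 u = y at y0 y1 y2
    by_cases y3 : S.h y y = 0
    · have hs := (S.unit_sing y).2 y3
      have := Nat.prime_two.dvd_of_dvd_pow (hg ▸ orderOf_dvd_of_pow_eq_one
        (X_pow hne hS h3 hF hs y0 (fix_X3 hne hS h3 hs y0 (hH g2) y1)))
      omega
    have n : ∀ a b : F, S.h w (a • w + b • y) = 0 → S.h y (a • w + b • y) = 0 → a = 0 ∧ b = 0 := fun a b => by
      simp +contextual [y2, S.h_swap_zero y2, hn, y3]
    rw [eq_one_of_fix hne hS h3 (U := Submodule.span F {w, y}) ((S.restrict_nondeg_iff' _).2 fun x hx h => by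
      obtain ⟨a, b, rfl⟩ := Submodule.mem_span_pair.1 hx
      simp [n a b (S.h_swap_zero (h w (Submodule.subset_span (by simp))))
        (S.h_swap_zero (h y (Submodule.subset_span (by simp))))]) (by
      rw [← Matrix.range_cons_cons_empty, finrank_span_eq_card (LinearIndependent.pair_iff.2 fun a b h =>
        n a b (by simp [h]) (by simp [h]))]; simp) (hH g2) (mem_fix_span.2 (by simp [g1, y1]))] at hg
    simp at hg
  refine ⟨h2, fun d' hd' => or_iff_not_imp_left.2 fun h0' => by_contra fun hne' => ?_⟩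
  haveI : CharP F 2 := CharTwo.of_one_ne_zero_of_two_eq_zero one_ne_zero h2
  obtain ⟨l, hl⟩ := isSquare_of_charTwo' (d' / d)
  have sq : ∀ a b : F, a * a = b * b → a = b := fun a b h => sub_eq_zero.1 (pow_eq_zero_iff two_ne_zero |>.1 (by
    linear_combination h + (b * b - a * b) * h2))
  refine not_mult hne hS h3 hF hH Hy hN (l := l) (by rintro rfl; exact hne' (by simpa [div_eq_iff h0] using hl))
    fun w h1 hn => ?_
  have hT' : (S.restrict ⊤).Nondeg := (S.restrict_nondeg_iff' _).2 fun x _ h => hS x fun y => h y trivial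
  obtain ⟨y, -, y1, Y⟩ := exists_partner_in hT' (a := w) trivial trivial hu (fun h => by
    obtain ⟨c, rfl⟩ := Submodule.mem_span_singleton.1 h
    simp [hn, left_ne_zero_of_smul Hy.e_ne] at h1) (S.h_swap_zero h1)
  obtain ⟨b, b0, hb, k⟩ := D_trans Hy (hT y Y.sing_f Y.f_ne) hd h0
  have sq2 : ∀ x, S.Sing x → ∀ a ∈ (unitP σ hσ).Λ, S.eich x 0 a * S.eich x 0 a = 1 := fun x hx a ha => by
    rw [tv_mul hx ha ha, ← two_mul, h2, zero_mul, eich_zero]
  have cm : ∀ x, S.Sing x → x ≠ 0 → ∀ a ∈ (unitP σ hσ).Λ, a ≠ 0 → ∀ c : S.Isom, ∀ a', c * S.eich x 0 a' * c⁻¹ =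
      S.eich x 0 a → c.1 x ∈ F ∙ x := fun x hx x0 a ha a0 c a' e =>
    X_fix hS h3 hx x0 (eich_mem_X x 0 a) (tv_ne_one hS hx x0 ha a0) ((isom_sing _ _).2 hx) (c := 1) (by
      rw [← e, isom_mul_apply, isom_mul_apply, isom_inv_apply_self, eich_apply_self, one_smul])
  have cj : ∀ d ∈ Ds H hu, d ≠ 0 → ∃ g ∈ MulAction.stabilizer S.Isom w ⊓ H,
      g * S.eich y 0 b * g⁻¹ = S.eich u 0 d := fun d hd h0 => by
    rcases inv_conj_or (G := (MulAction.stabilizer S.Isom w ⊓ H : Subgroup _)) (z := ⟨_, fx w u d (S.h_swap_zero h1)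
      hd.2⟩) (y := ⟨_, fx w y b y1 k⟩) (Subtype.ext (sq2 u hu d hd.1)) (Subtype.ext (sq2 y Y.sing_f b hb)) with
      ⟨n, e⟩ | ⟨c, c1, c2, c3, c4⟩
    · exact ⟨_, Subtype.prop _, congrArg Subtype.val e⟩
    obtain ⟨i, e⟩ := Submodule.mem_span_singleton.1 (cm u hu Hy.e_ne d hd.1 h0 c d
      (mul_inv_eq_iff_eq_mul.2 (congrArg Subtype.val c3)))
    obtain ⟨j, e'⟩ := Submodule.mem_span_singleton.1 (cm y Y.sing_f Y.f_ne b hb b0 c b
      (mul_inv_eq_iff_eq_mul.2 (congrArg Subtype.val c4)))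
    have e1 : c.1.1 (c.1.1 u) = u := congr($(c2).1.1 u)
    rw [← e, map_smul, ← e, smul_smul] at e1
    obtain rfl := sq i 1 (smul_left_injective F Hy.e_ne (by simpa using e1))
    obtain ⟨i, e2⟩ := Submodule.mem_span_singleton.1 (X_fix hS h3 hu Hy.e_ne (fix_X3 hne hS h3 hu Hy.e_ne (hH c.2.2)
      (by rw [← e, one_smul])) (by simpa using c1) Y.sing_f e'.symm)
    simpa [← e2, Hy.h_ee] using Y.h_ef
  obtain ⟨g, g1, g2⟩ := cj d hd h0
  obtain ⟨g', g3, g4⟩ := cj d' hd' h0'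
  have g5 := mul_mem g3 (inv_mem g1)
  have g6 : g' * g⁻¹ * S.eich u 0 d * (g' * g⁻¹)⁻¹ = S.eich u 0 d' := by rw [← g2, ← g4]; group
  generalize g' * g⁻¹ = g at g5 g6
  obtain ⟨i, e⟩ := Submodule.mem_span_singleton.1 (cm u hu Hy.e_ne d' hd'.1 h0' g d g6)
  obtain ⟨c, e1⟩ := act_perp hne hS h3 hu Hy.e_ne (hH g5.2) e.symm h1
  have i0 : i ≠ 0 := by rintro rfl; exact Hy.e_ne (by simpa using e.symm)
  have e2 := congrArg (S.h w) ((show g.1 w = w from g5.1).symm.trans e1)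
  rw [conj_eich, ← e, map_zero, tv_smul' hu hd.1] at g6
  have e3 := congrArg (S.h f) congr($(g6).1 f)
  simp only [map_add, map_smul, S.h_swap_zero h1, smul_eq_mul, mul_zero, add_zero, eq_comm (a := S.h w w),
    mul_eq_right₀ hn, mul_inv_eq_one₀ i0] at e2
  rw [tv_apply hu (mul_mem_Λ hd.1 i)] at e3
  simp only [tv_apply hu hd'.1, map_sub, map_smul, Hy.h_ef, Hy.h_fe, e2, unitP_ε,
    smul_eq_mul] at e3
  rw [div_eq_iff h0] at hl
  exact ⟨g, g5.2, g5.1, sq i l (mul_right_cancel₀ h0 (by linear_combination hl - e3)) ▸ e.symm⟩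

omit hne [Finite F] [Finite V] in
theorem V1_ns {x : V} (hx : x ∈ V1 S u f) (h0 : x ≠ 0) : S.h x x ≠ 0 := fun h => by
  obtain ⟨c, rfl⟩ := Submodule.mem_span_singleton.1
    (sing_perp3 hS h3 Hy.e_ne Hy.sing_e ((S.unit_sing x).2 h) (mem_V1.1 hx).1)
  simpa [Hy.h_fe, left_ne_zero_of_smul h0] using (mem_V1.1 hx).2

omit hne [Finite F] in
theorem R_four (h2 : (2 : F) = 0) {d : F} (hD : ∀ d' ∈ Ds H Hy.sing_e, d' = 0 ∨ d' = d) :
    Nat.card (Rs H Hy) ≤ 4 := by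
  have ad : ∀ r : V, r + r = 0 := fun r => by rw [← two_smul F, h2, zero_smul]
  have k : ∀ r ∈ Rs H Hy, r ≠ 0 → S.h r r = d ∧ d ≠ 0 := fun r hr h0 => by
    obtain ⟨a, hc, h⟩ := hr.1
    have h1 := mul_mem h h
    have h4 := (hc.add hc).q
    rw [eich_mul hc hc] at h1
    rw [ad, show a + a + S.h r r = S.h r r by linear_combination a * h2] at h1 h4
    have := (hD _ ⟨by simpa using AddSubgroup.add_mem _ h4 S.q_zero, h1⟩).resolve_left (V1_ns hS h3 Hy hr.2 h0)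
    exact ⟨this, this ▸ V1_ns hS h3 Hy hr.2 h0⟩
  have k2 : ∀ r ∈ Rs H Hy, r ≠ 0 → ∀ x ∈ Rs H Hy, x ≠ 0 → r + x ≠ 0 → S.h r x + σ (S.h r x) = d :=
    fun r hr h0 x hx x0 h1 => by
      have := unit_h_add (S := S) r x
      rw [(k r hr h0).1, (k x hx x0).1, (k _ (add_mem hr hx) h1).1] at this
      linear_combination -this - d * h2
  obtain ⟨r, x, h⟩ : ∃ r x, ∀ y ∈ Rs H Hy, y ∈ ({0, r, x, r + x} : Set V) := by
    by_cases h : ∃ r ∈ Rs H Hy, ∃ x ∈ Rs H Hy, r ≠ 0 ∧ x ≠ 0 ∧ r + x ≠ 0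
    · obtain ⟨r, hr, x, hx, r0, x0, h1⟩ := h
      refine ⟨r, x, fun y hy => by_contra fun hn => ?_⟩
      simp only [Set.mem_insert_iff, Set.mem_singleton_iff, not_or] at hn
      have n : ∀ z, y ≠ z → z + y ≠ 0 := fun z h h' => h (by rw [← add_zero y, ← ad z, add_left_comm, add_comm y, h',
        add_zero])
      have := k2 r hr r0 _ (add_mem hx hy) (n x hn.2.2.1) (add_assoc r x y ▸ n _ hn.2.2.2)
      rw [map_add, map_add] at this
      exact (k r hr r0).2 (by linear_combination this - k2 r hr r0 x hx x0 h1 - k2 r hr r0 y hy hn.1 (n r hn.2.1))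
    by_cases h' : ∃ r ∈ Rs H Hy, r ≠ 0
    · obtain ⟨r, hr, r0⟩ := h'
      refine ⟨r, 0, fun y hy => by_contra fun hn => h ⟨r, hr, y, hy, r0, by rintro rfl; simp at hn, fun e => hn ?_⟩⟩
      simp [show y = r from add_left_cancel (e.trans (ad r).symm)]
    · exact ⟨0, 0, fun y hy => Or.inl (by_contra fun h => h' ⟨y, hy, h⟩)⟩
  refine (Set.ncard_le_ncard (s := (Rs H Hy : Set V)) h).trans ((Set.ncard_insert_le _ _).trans ?_)
  have := Set.ncard_insert_le r {x, r + x}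
  have := Set.ncard_insert_le x {r + x}
  rw [Set.ncard_singleton] at this
  omega

omit [Finite V] in
include hH in
theorem D0_line (hD : ∀ d ∈ Ds H Hy.sing_e, d = 0) {r : V} (hr : r ∈ Rs H Hy) (h0 : r ≠ 0) {g : S.Isom} (hg : g ∈ H)
    {c : F} (e : g.1 u = c • u) : σ c ^ 3 = c ^ 3 := by
  obtain ⟨l, e1⟩ := act_perp hne hS h3 Hy.sing_e Hy.e_ne (hH hg) e (mem_V1.1 hr.2).1
  have c0 : c ≠ 0 := by rintro rfl; exact Hy.e_ne (by simpa using e)
  have h1 := h_fixed_of_D0 Hy hD hr.1 (BSet_smul (hu := Hy.sing_e) c0 (BSet_map (hu' := Hy.sing_e.smul _) hr.1 hg e))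
  simp only [e1, map_add, map_smul, smul_eq_mul, S.h_swap_zero (mem_V1.1 hr.2).1, map_mul, map_inv₀, hσ, mul_zero,
    add_zero, S.unit_h_self_fixed, ← mul_assoc, mul_left_inj' (V1_ns hS h3 Hy hr.2 h0)] at h1
  have : σ c ≠ 0 := by simpa using c0
  field_simp at h1
  exact h1.symm

omit hne hS h3 Hy in
theorem card_dvd_of_pow {T : Subgroup Fˣ} {n : ℕ} (h : ∀ c ∈ T, (c : F) ^ n = 1) : Nat.card T ∣ n :=
  IsCyclic.exponent_eq_card (α := T) ▸ Monoid.exponent_dvd_of_forall_pow_eq_one fun c =>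
    Subtype.ext (Units.ext (by simpa using h c c.2))

omit [Finite V] in
include hH in
theorem card_Z_dvd : Nat.card (S.scal.range ⊓ H : Subgroup _) ∣ 3 := by
  have h1 := card_stab0 (S.scal.range ⊓ H) Hy.e_ne
  have k : ∀ g ∈ S.scal.range ⊓ H, ∀ c : F, g.1 u = c • u → c ^ 3 = 1 ∧ (c = 1 → g = 1) := by
    rintro _ ⟨⟨d, rfl⟩, h⟩ c e
    obtain rfl : d.1 = c := smul_left_injective F Hy.e_ne e
    exact ⟨(scal_mem_E3 hne hS h3 Hy).1 (hH h), fun h => isom_ext fun x => by simp [h]⟩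
  rw [inf_eq_right.2 (by rintro _ ⟨⟨d, rfl⟩, -⟩; exact mem_stab_of_smul rfl), (Subgroup.eq_bot_iff_forall
    (MulAction.stabilizer _ u ⊓ _)).2 fun g hg => (k g hg.2 1 (hg.1.trans (one_smul _ _).symm)).2 rfl] at h1
  rw [h1, Subgroup.card_bot, mul_one]
  exact card_dvd_of_pow (T := Tu (S.scal.range ⊓ H) u) fun c ⟨g, hg, e⟩ => (k g hg c e).1

include hF hH in
theorem card_P_le : Nat.card (H ⊓ S.X u : Subgroup _) ≤ Nat.card (Rs H Hy) * Nat.card (Ds H Hy.sing_e) := by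
  have h1 := card_X_le (H := H) hS Hy
  have h2 := relIndex_mul_card' H (S.X u)
  have := finrank_V1 Hy
  rw [card_submodule, card_unit_Λ hσ hne hF, hF, show finrank F (V1 S u f) = 1 by omega, pow_one, ← pow_succ,
    ← (card_P3 hne hS h3 hF Hy.sing_e Hy.e_ne).2.2, ← h2] at h1
  exact Nat.le_of_mul_le_mul_left h1 (relIndex_pos' _ _)

end H25
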