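import Cfsg.Agent.H6.KpX

/-! If `H ≥ C(P)` has a normal complement, restriction to `H` is injective on the irreducible
characters of `p'`-degree and keeps them irreducible. -/

open H5 H6 H8 Cfsg

namespace H25.OdC

theorem pC {G : Type*} [Group G] [Finite G] (p : ℕ) [Fact p.Prime] (P : Sylow p G) (H K : Subgroup G)
    [K.Normal] (hP : Subgroup.centralizer ((P : Subgroup G) : Set G) ≤ H) (h1 : K ⊓ H = ⊥)
    (h2 : K ⊔ H = ⊤) :
    (∑ᶠ χ : {χ : IrrCharacter G // ¬ p ∣ charDegree χ.1}, charDegree χ.1.1 ^ 2) ≤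
      ∑ᶠ η : {η : IrrCharacter H // ¬ p ∣ charDegree η.1}, charDegree η.1.1 ^ 2 := by
  classical
  have hk : ∀ χ : {χ : IrrCharacter G // ¬ p ∣ charDegree χ.1}, K ≤ charKer χ.1.1 := fun χ =>
    H6.KpX.le_ker P.isPGroup' (le_bot_iff.1 (h1 ▸ inf_le_inf_left _ hP)) χ.1.2 χ.2
  have hg : ∀ g : G, ∃ k ∈ K, ∃ h ∈ H, k * h = g := fun g => by
    have : g ∈ ((K ⊔ H : Subgroup G) : Set G) := by rw [h2]; trivial
    rw [Subgroup.normal_mul] at this
    exact this
  have hi : ∀ χ : {χ : IrrCharacter G // ¬ p ∣ charDegree χ.1},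
      IsIrrCharacter H (fun x : H => χ.1.1 x) := fun χ => by
    obtain ⟨χ', a, b⟩ := χ.1.2.exists_deflate K (hk χ)
    have := a.comp_surjective ((QuotientGroup.mk' K).comp H.subtype) (fun y => by
      obtain ⟨g, rfl⟩ := QuotientGroup.mk_surjective y
      obtain ⟨k, hk, h, hh, rfl⟩ := hg g
      refine ⟨⟨h, hh⟩, ?_⟩
      change ((h : G) : G ⧸ K) = ((k * h : G) : G ⧸ K)
      rw [QuotientGroup.mk_mul, (QuotientGroup.eq_one_iff k).2 hk, one_mul])
    have e : (fun x : H => χ.1.1 x) = fun x : H => χ' (((QuotientGroup.mk' K).comp H.subtype) x) :=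
      funext fun x => (b x).symm
    rw [e]; exact this
  have hd : ∀ χ : {χ : IrrCharacter G // ¬ p ∣ charDegree χ.1},
      charDegree (fun x : H => χ.1.1 x) = charDegree χ.1.1 := fun χ => charDegree_congr rfl
  let f : {χ : IrrCharacter G // ¬ p ∣ charDegree χ.1} → {η : IrrCharacter H // ¬ p ∣ charDegree η.1} :=
    fun χ => ⟨⟨_, hi χ⟩, by rw [hd]; exact χ.2⟩
  have hf : Function.Injective f := fun χ ψ e => Subtype.ext (Subtype.ext (funext fun g => by
    obtain ⟨k, hk', h, hh, rfl⟩ := hg g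
    rw [hk χ hk' h, hk ψ hk' h]
    exact congrFun (congrArg (fun z => z.1.1) e) ⟨h, hh⟩))
  rw [finsum_eq_sum_of_fintype, finsum_eq_sum_of_fintype]
  calc _ = ∑ η ∈ Finset.univ.image f, charDegree η.1.1 ^ 2 := by
        rw [Finset.sum_image fun a _ b _ e => hf e]
        exact Finset.sum_congr rfl fun χ _ => by rw [← hd χ]
    _ ≤ _ := Finset.sum_le_sum_of_subset (Finset.subset_univ _)

end H25.OdC
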