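import Cfsg.Agent.H29.Q0

/-! Overgroups of `Ω₃(K)`: piece E2 (counting the images of a vector). -/

set_option autoImplicit false
set_option linter.unusedSectionVars false

namespace H25.Q3E

open Module H11 H11.PForm H29 H29.Q3

variable {F K V : Type*} [Field F] [Field K] [Algebra F K] [AddCommGroup V] [Module F V]
  [Module K V] [IsScalarTower F K V] [FiniteDimensional F V] {S : PForm (orthP F) V}
  [Finite F] [Finite K] {φ : Dual F K} {U : PForm (orthP K) V} {H : Subgroup S.Isom}

theorem ncard_sub (X : Submodule F V) : (X : Set V).ncard = Nat.card F ^ finrank F X :=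
  Module.natCard_eq_pow_finrank (K := F) (V := X)

theorem pE2 (h : O3 φ U H) (s1 : S1 U H) (inj : INJ U H) : E2 U H := by
  intro d u Y hM hu hu0 hY huY hd d1 hr
  haveI := h.toOX.fd
  haveI : FiniteDimensional F K := finite_of_finrank_pos h.pr.pos
  haveI : Finite V := Module.finite_of_finite F
  by_contra hne
  obtain ⟨I, G, hI, g1, g2⟩ := inj d u Y hM hu hu0 hY huY hne hd hr
  set D := KL F K u ⊓ Y with hD
  have dD : finrank F D = d + 1 := le_antisymm (not_lt.1 fun e => hne (hM _ _ (om_kl hu hu0) hY e).symm) hd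
  obtain ⟨y', y1, y2⟩ : ∃ y' ∈ D, y' ∉ F ∙ u := by
    by_contra! a
    have := Submodule.finrank_mono (show D ≤ F ∙ u from a)
    have := finrank_span_one_le (F := F) u
    omega
  have uD : u ∈ D := ⟨by simpa using smul_mem_KL (F := F) (1 : K) u, huY⟩
  have key := Set.ncard_le_ncard_of_injOn (s := I ×ˢ ((Y : Set V) \ D)) (t := (S.perp D : Set V))
    (fun p => (G p.1).1 p.2) (fun p hp z hz => by
      rw [← (g1 _ hp.1).2 z hz, isom_h]
      exact h.toOX.ts hY hz.2 hp.2.1) fun p hp p' hp' e => by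
      have hg : (G p'.1)⁻¹ * G p.1 ∈ H := H.mul_mem (H.inv_mem (g1 _ hp'.1).1) (g1 _ hp.1).1
      have f : ∀ z ∈ D, ((G p'.1)⁻¹ * G p.1).1 z = z := fun z hz => (G p'.1).1.injective (by
        rw [isom_mul_apply, isom_apply_inv_self, (g1 _ hp.1).2 z hz, (g1 _ hp'.1).2 z hz])
      have e' : ((G p'.1)⁻¹ * G p.1).1 p.2 = p'.2 := (G p'.1).1.injective (by
        rw [isom_mul_apply, isom_apply_inv_self]; exact e)
      have n := hM.nml hY (D := D) inf_le_right dD.ge hg f hp.2.1 (e' ▸ hp'.2.1) hp.2.2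
      have a := s1 Y _ u y' hY hg n huY y1.2 hu0 y2 (f u uD) (f y' y1)
      refine Prod.ext (g2 _ hp.1 _ hp'.1 fun z hz => ?_) ((a _ hp.2.1).symm.trans e')
      have := congrArg (G p'.1).1 (a z hz)
      rwa [isom_mul_apply, isom_apply_inv_self] at this
  have p1 := h.nd.finrank_perp D
  have p2 := Module.finrank_mul_finrank F K V
  obtain ⟨e, he⟩ : ∃ e, finrank F K = d + 1 + (e + 2) := ⟨finrank F K - (d + 3), by omega⟩
  have cK : Nat.card K = Nat.card F ^ (d + 1) * Nat.card F ^ (e + 2) := by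
    rw [Module.natCard_eq_pow_finrank (K := F) (V := K), he, pow_add]
  rw [Set.ncard_prod, Set.ncard_sdiff (show (D : Set V) ⊆ Y from fun _ a => a.2), ncard_sub, ncard_sub, ncard_sub,
    hY.finrank, dD, show finrank F (S.perp D) = finrank F K * 2 + (e + 2) by rw [h.dim3] at p2; omega, pow_add _ _ (e + 2),
    pow_mul, ← Module.natCard_eq_pow_finrank (K := F) (V := K)] at key
  have q2 : 2 ≤ Nat.card F := Finite.one_lt_card
  have a1 : 2 * Nat.card F ≤ Nat.card F ^ (d + 1) :=
    (Nat.mul_le_mul_right _ q2).trans (by rw [← sq]; exact Nat.pow_le_pow_right (by omega) (by omega))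
  have a2 : 4 ≤ Nat.card F ^ (e + 2) :=
    (Nat.pow_le_pow_left q2 2).trans (Nat.pow_le_pow_right (by omega) (by omega))
  have k0 : 0 < Nat.card K ^ 2 := pow_pos Nat.card_pos 2
  have a3 : Nat.card K - Nat.card F ^ (d + 1) ≤ Nat.card F * Nat.card F ^ (e + 2) := by
    refine Nat.le_of_mul_le_mul_left ((Nat.mul_le_mul_right _ hI).trans ?_) k0
    rw [mul_assoc, mul_left_comm (Nat.card K ^ 2)]
    exact Nat.mul_le_mul_left _ key
  rw [cK] at a3
  generalize Nat.card F ^ (d + 1) = a at *
  generalize Nat.card F ^ (e + 2) = b at *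
  have a4 : a * b ≤ Nat.card F * b + a := by omega
  nlinarith

end H25.Q3E
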